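import Mathlib
import Cfsg.Agent.Lib.Helper20.Omega

set_option autoImplicit false

namespace Cfsg.Agent.Lib.Helper20.Baer

theorem abs_fixed {V : Type*} [AddCommGroup V] [Finite V] {Γ : Type*} [Group Γ] {p : ℕ}
    [Fact p.Prime] (hV : ∀ v : V, p • v = 0) (ρ : Γ →* AddMonoid.End V) (P Q : Subgroup Γ)
    [Finite Q] (hP : IsPGroup p P) (hQ : (Nat.card Q).Coprime p)
    (hPQ : P ≤ Subgroup.normalizer (Q : Set Γ))
    (hC : ∀ v : V, (∀ g ∈ P, ρ g v = v) → ∀ a ∈ Q, ρ a v = v) :
    ∀ a ∈ Q, ∀ v : V, ρ a v = v := by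
  classical
  have hp : p.Prime := Fact.out
  letI : Fintype ↥Q := Fintype.ofFinite _
  let τ : V →+ V :=
    { toFun := fun v => ∑ a : ↥Q, ρ (a : Γ) v
      map_zero' := by simp
      map_add' := fun x y => by simp [Finset.sum_add_distrib] }
  have hτ : ∀ v, τ v = ∑ a : ↥Q, ρ (a : Γ) v := fun v => rfl
  have hmul : ∀ (g k : Γ) (v : V), ρ (g * k) v = ρ g (ρ k v) := by
    intro g k v
    rw [map_mul]; rfl
  have hτQ : ∀ b ∈ Q, ∀ v, ρ b (τ v) = τ v := by
    intro b hb v
    rw [hτ, map_sum]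
    apply Fintype.sum_equiv (Equiv.mulLeft (⟨b, hb⟩ : ↥Q))
    intro a
    rw [← hmul]
    rfl
  have hτP : ∀ g ∈ P, ∀ v, ρ g (τ v) = τ (ρ g v) := by
    intro g hg v
    rw [hτ, hτ, map_sum]
    apply Fintype.sum_equiv (Omega.conjEquiv Q g (hPQ hg)).toEquiv
    intro a
    rw [← hmul, ← hmul]
    congr 2
    show g * (a : Γ) = g * (a : Γ) * g⁻¹ * g
    group
  by_cases hK : ∀ v, τ v = 0 → v = 0
  · have hinj : Function.Injective τ := by
      rw [injective_iff_map_eq_zero]
      exact hK
    have hsurj : Function.Surjective τ := Finite.injective_iff_surjective.1 hinj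
    intro a ha v
    obtain ⟨w, rfl⟩ := hsurj v
    exact hτQ a ha w
  · exfalso
    push Not at hK
    obtain ⟨v₀, hv₀, hv₀ne⟩ := hK
    obtain ⟨K, hKdef⟩ : ∃ K : AddSubgroup V, K = τ.ker := ⟨_, rfl⟩
    have hKmem : ∀ v, v ∈ K ↔ τ v = 0 := by
      intro v; rw [hKdef]; exact AddMonoidHom.mem_ker
    letI : MulAction ↥P ↥K :=
      { smul := fun g v => ⟨ρ (g : Γ) v.1, by
          rw [hKmem, ← hτP _ g.2, (hKmem _).1 v.2, map_zero]⟩
        one_smul := fun v => Subtype.ext (by
          show ρ ((1 : ↥P) : Γ) v.1 = v.1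
          rw [Subgroup.coe_one, map_one]; rfl)
        mul_smul := fun g k v => Subtype.ext (by
          show ρ ((g * k : ↥P) : Γ) v.1 = ρ (g : Γ) (ρ (k : Γ) v.1)
          rw [Subgroup.coe_mul, hmul]) }
    have hsmul : ∀ (g : ↥P) (v : ↥K), ((g • v : ↥K) : V) = ρ (g : Γ) v.1 := fun g v => rfl
    have hdvd : p ∣ Nat.card ↥K := by
      have h1 : addOrderOf (⟨v₀, (hKmem v₀).2 hv₀⟩ : ↥K) = p := by
        apply addOrderOf_eq_prime
        · apply Subtype.ext
          rw [AddSubgroup.coe_nsmul]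
          exact hV v₀
        · intro h
          exact hv₀ne (congrArg Subtype.val h)
      rw [← h1]
      exact addOrderOf_dvd_natCard _
    have h0 : (0 : ↥K) ∈ MulAction.fixedPoints ↥P ↥K := by
      intro g
      apply Subtype.ext
      rw [hsmul]
      exact map_zero _
    obtain ⟨b, hb, hb0⟩ := hP.exists_fixed_point_of_prime_dvd_card_of_fixed_point ↥K hdvd h0
    have hbP : ∀ g ∈ P, ρ g b.1 = b.1 := by
      intro g hg
      have := hb ⟨g, hg⟩
      exact congrArg Subtype.val this
    have hbQ := hC b.1 hbP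
    have hτb : τ b.1 = Nat.card ↥Q • b.1 := by
      rw [hτ, Nat.card_eq_fintype_card, ← Finset.card_univ, ← Finset.sum_const]
      apply Finset.sum_congr rfl
      intro a _
      exact hbQ a a.2
    have h1 : addOrderOf b.1 ∣ Nat.card ↥Q := by
      apply addOrderOf_dvd_of_nsmul_eq_zero
      rw [← hτb]
      exact (hKmem _).1 b.2
    have h2 : addOrderOf b.1 ∣ p := addOrderOf_dvd_of_nsmul_eq_zero (hV _)
    have h3 : addOrderOf b.1 = 1 := by
      have := Nat.dvd_gcd h1 h2
      rw [hQ] at this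
      exact Nat.dvd_one.1 this
    rw [AddMonoid.addOrderOf_eq_one_iff] at h3
    exact hb0 (Subtype.ext h3.symm)

variable {H : Type*} [Group H]

def cm (x y : H) : H := x * y * x⁻¹ * y⁻¹

def Cl2 (H : Type*) [Group H] : Prop := ∀ x y z : H, z * cm x y = cm x y * z

theorem cm_mul_left (hcl : Cl2 H) (x y z : H) : cm (x * y) z = cm x z * cm y z := by
  have h1 : cm (x * y) z = x * cm y z * x⁻¹ * cm x z := by unfold cm; group
  rw [h1, hcl y z x, mul_inv_cancel_right, hcl x z]

theorem cm_mul_right (hcl : Cl2 H) (x y z : H) : cm x (y * z) = cm x y * cm x z := by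
  have h1 : cm x (y * z) = cm x y * (y * cm x z * y⁻¹) := by unfold cm; group
  rw [h1, hcl x z y, mul_inv_cancel_right]

theorem cm_central_right (x k : H) (hk : ∀ w : H, w * k = k * w) : cm x k = 1 := by
  unfold cm; rw [hk x]; group

theorem cm_central_left (k x : H) (hk : ∀ w : H, w * k = k * w) : cm k x = 1 := by
  unfold cm; rw [← hk x]; group

theorem cm_inv (x y : H) : (cm x y)⁻¹ = cm y x := by unfold cm; group

theorem pow_central (hcl : Cl2 H) (x y : H) (n : ℕ) (w : H) :
    w * cm x y ^ n = cm x y ^ n * w :=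
  Commute.pow_right (hcl x y w) n

def add (h : ℕ) (x y : H) : H := x * y * cm y x ^ h

theorem add_assoc' (h : ℕ) (hcl : Cl2 H) (x y z : H) :
    add h (add h x y) z = add h x (add h y z) := by
  have ha : ∀ w : H, w * cm y x ^ h = cm y x ^ h * w := pow_central hcl y x h
  have hc : ∀ w : H, w * cm z y ^ h = cm z y ^ h * w := pow_central hcl z y h
  have e1 : cm z (x * y * cm y x ^ h) = cm z x * cm z y := by
    rw [cm_mul_right hcl, cm_mul_right hcl, cm_central_right _ _ ha, mul_one]
  have e2 : cm (y * z * cm z y ^ h) x = cm y x * cm z x := by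
    rw [cm_mul_left hcl, cm_mul_left hcl, cm_central_left _ _ hc, mul_one]
  have e3 : (cm z x * cm z y) ^ h = cm z x ^ h * cm z y ^ h :=
    Commute.mul_pow (hcl z y (cm z x)) h
  have e4 : (cm y x * cm z x) ^ h = cm y x ^ h * cm z x ^ h :=
    Commute.mul_pow (hcl z x (cm y x)) h
  unfold add
  rw [e1, e2, e3, e4]
  generalize cm y x ^ h = a at *
  generalize cm z x ^ h = b at *
  generalize cm z y ^ h = c at *
  calc x * y * a * z * (b * c) = x * y * (a * z) * (b * c) := by simp only [mul_assoc]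
    _ = x * y * (z * a) * (b * c) := by rw [← ha z]
    _ = x * y * z * ((a * b) * c) := by simp only [mul_assoc]
    _ = x * y * z * (c * (a * b)) := by rw [hc (a * b)]
    _ = x * (y * z * c) * (a * b) := by simp only [mul_assoc]

theorem add_comm' (h : ℕ) (hcl : Cl2 H) (hh : ∀ x y : H, cm x y ^ (2 * h) = cm x y) (x y : H) :
    add h x y = add h y x := by
  have hc : ∀ w, w * cm y x = cm y x * w := hcl y x
  have e1 : y * x = x * y * cm y x := by
    calc y * x = cm y x * (x * y) := by unfold cm; group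
      _ = x * y * cm y x := (hc _).symm
  have e2 : cm x y = (cm y x)⁻¹ := (cm_inv y x).symm
  have e3 : cm y x ^ h * cm y x ^ h = cm y x := by
    rw [← pow_add, ← two_mul]; exact hh y x
  unfold add
  rw [e1, e2, mul_assoc (x * y), mul_right_inj, inv_pow, eq_mul_inv_iff_mul_eq]
  exact e3

@[reducible] def addCommGroup (h : ℕ) (hcl : Cl2 H) (hh : ∀ x y : H, cm x y ^ (2 * h) = cm x y) :
    AddCommGroup H :=
  letI : Add H := ⟨add h⟩
  letI : Zero H := ⟨1⟩
  letI : Neg H := ⟨fun x => x⁻¹⟩
  { (AddGroup.ofLeftAxioms (add_assoc' h hcl)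
      (fun x => by
        show add h 1 x = x
        simp [add, cm])
      (fun x => by
        show add h x⁻¹ x = 1
        simp [add, cm]) : AddGroup H) with
    add_comm := add_comm' h hcl hh }

theorem nsmul_eq (h : ℕ) (hcl : Cl2 H) (hh : ∀ x y : H, cm x y ^ (2 * h) = cm x y) (n : ℕ)
    (x : H) : letI := addCommGroup h hcl hh; n • x = x ^ n := by
  letI := addCommGroup h hcl hh
  induction n with
  | zero => rw [zero_nsmul, pow_zero]; rfl
  | succ n ih =>
    rw [succ_nsmul, ih, pow_succ]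
    show add h (x ^ n) x = x ^ n * x
    have h1 : cm x (x ^ n) = 1 := by
      unfold cm
      rw [← pow_succ', pow_succ, mul_inv_cancel_right, mul_inv_cancel]
    unfold add
    rw [h1, one_pow, mul_one]

theorem map_add' {H' : Type*} [Group H'] (h : ℕ) (f : H →* H') (x y : H) :
    f (add h x y) = add h (f x) (f y) := by
  unfold add cm
  simp only [map_mul, map_pow, map_inv]

end Cfsg.Agent.Lib.Helper20.Baer
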