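import Mathlib

set_option autoImplicit false

namespace Cfsg.Agent.Lib.Helper20.CWQuad

open MvPolynomial

def pw {K : Type*} [One K] (k : K) (x : ZMod 2) : K := if x = 0 then 1 else k

noncomputable def poly (a : Fin 5 → ZMod 2) (b : Fin 5 → Fin 5 → ZMod 2) :
    MvPolynomial (Fin 5) (ZMod 2) :=
  ∑ i, C (a i) * X i + ∑ i, ∑ j, C (if i < j then b i j else 0) * (X i * X j)

theorem totalDegree_poly (a : Fin 5 → ZMod 2) (b : Fin 5 → Fin 5 → ZMod 2) :
    (poly a b).totalDegree ≤ 2 := by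
  unfold poly
  refine (totalDegree_add _ _).trans (max_le ?_ ?_)
  · refine totalDegree_finsetSum_le (fun i _ => ?_)
    refine (totalDegree_mul _ _).trans ?_
    rw [totalDegree_C, totalDegree_X]
    norm_num
  · refine totalDegree_finsetSum_le (fun i _ => ?_)
    refine totalDegree_finsetSum_le (fun j _ => ?_)
    refine (totalDegree_mul _ _).trans ?_
    rw [totalDegree_C]
    refine (Nat.zero_add _).le.trans ((totalDegree_mul _ _).trans ?_)
    rw [totalDegree_X, totalDegree_X]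

theorem eval_poly (a : Fin 5 → ZMod 2) (b : Fin 5 → Fin 5 → ZMod 2) (x : Fin 5 → ZMod 2) :
    eval x (poly a b) = a 0 * x 0 + a 1 * x 1 + a 2 * x 2 + a 3 * x 3 + a 4 * x 4
      + (b 0 1 * (x 0 * x 1) + b 0 2 * (x 0 * x 2) + b 0 3 * (x 0 * x 3) + b 0 4 * (x 0 * x 4)
      + b 1 2 * (x 1 * x 2) + b 1 3 * (x 1 * x 3) + b 1 4 * (x 1 * x 4)
      + b 2 3 * (x 2 * x 3) + b 2 4 * (x 2 * x 4) + b 3 4 * (x 3 * x 4)) := by
  unfold poly
  simp only [map_add, map_mul, eval_C, eval_X, Fin.sum_univ_five]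
  have h01 : ((0 : Fin 5) < 1) = True := by decide
  have h02 : ((0 : Fin 5) < 2) = True := by decide
  have h03 : ((0 : Fin 5) < 3) = True := by decide
  have h04 : ((0 : Fin 5) < 4) = True := by decide
  have h12 : ((1 : Fin 5) < 2) = True := by decide
  have h13 : ((1 : Fin 5) < 3) = True := by decide
  have h14 : ((1 : Fin 5) < 4) = True := by decide
  have h23 : ((2 : Fin 5) < 3) = True := by decide
  have h24 : ((2 : Fin 5) < 4) = True := by decide
  have h34 : ((3 : Fin 5) < 4) = True := by decide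
  have h00 : ((0 : Fin 5) < 0) = False := by decide
  have h10 : ((1 : Fin 5) < 0) = False := by decide
  have h11 : ((1 : Fin 5) < 1) = False := by decide
  have h20 : ((2 : Fin 5) < 0) = False := by decide
  have h21 : ((2 : Fin 5) < 1) = False := by decide
  have h22 : ((2 : Fin 5) < 2) = False := by decide
  have h30 : ((3 : Fin 5) < 0) = False := by decide
  have h31 : ((3 : Fin 5) < 1) = False := by decide
  have h32 : ((3 : Fin 5) < 2) = False := by decide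
  have h33 : ((3 : Fin 5) < 3) = False := by decide
  have h40 : ((4 : Fin 5) < 0) = False := by decide
  have h41 : ((4 : Fin 5) < 1) = False := by decide
  have h42 : ((4 : Fin 5) < 2) = False := by decide
  have h43 : ((4 : Fin 5) < 3) = False := by decide
  have h44 : ((4 : Fin 5) < 4) = False := by decide
  simp only [h01, h02, h03, h04, h12, h13, h14, h23, h24, h34, h00, h10, h11, h20, h21, h22,
    h30, h31, h32, h33, h40, h41, h42, h43, h44, if_true, if_false, zero_mul, add_zero, zero_add]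
  ring

theorem exists_ne_zero (f₁ f₂ : MvPolynomial (Fin 5) (ZMod 2)) (h₁ : f₁.totalDegree ≤ 2)
    (h₂ : f₂.totalDegree ≤ 2) (z₁ : eval 0 f₁ = 0) (z₂ : eval 0 f₂ = 0) :
    ∃ x : Fin 5 → ZMod 2, x ≠ 0 ∧ eval x f₁ = 0 ∧ eval x f₂ = 0 := by
  classical
  have h := char_dvd_card_solutions_of_add_lt (K := ZMod 2) (σ := Fin 5) 2 (f₁ := f₁) (f₂ := f₂)
    (by rw [Fintype.card_fin]; omega)
  by_contra hcon
  push Not at hcon
  have hone : Fintype.card {x : Fin 5 → ZMod 2 // eval x f₁ = 0 ∧ eval x f₂ = 0} = 1 := by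
    rw [Fintype.card_eq_one_iff]
    refine ⟨⟨0, z₁, z₂⟩, ?_⟩
    rintro ⟨y, hy1, hy2⟩
    apply Subtype.ext
    by_contra hy
    exact hcon y hy hy1 hy2
  rw [hone] at h
  omega

theorem zmod2_cases (x : ZMod 2) : x = 0 ∨ x = 1 := by
  fin_cases x
  · left; rfl
  · right; rfl

theorem phi_eq {K : Type*} [Group K] (φ : K → ZMod 2) (B : K → K → ZMod 2) (h1 : φ 1 = 0)
    (hφ : ∀ x y, φ (x * y) = φ x + φ y + B x y)
    (hB : ∀ x y z, B (x * y) z = B x z + B y z) (k : Fin 5 → K) (x : Fin 5 → ZMod 2) :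
    φ (pw (k 0) (x 0) * pw (k 1) (x 1) * pw (k 2) (x 2) * pw (k 3) (x 3) * pw (k 4) (x 4))
      = eval x (poly (fun i => φ (k i)) (fun i j => B (k i) (k j))) := by
  have hB1 : ∀ z, B z 1 = 0 := by
    intro z
    have := hφ z 1
    rw [mul_one, h1, add_zero] at this
    exact (add_eq_left.1 this.symm)
  have hB1' : ∀ z, B 1 z = 0 := by
    intro z
    have := hφ 1 z
    rw [one_mul, h1, zero_add] at this
    exact (add_eq_left.1 this.symm)
  have hpw : ∀ (k : K) (x : ZMod 2), φ (pw k x) = φ k * x := by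
    intro k x
    by_cases hx : x = 0
    · simp [pw, hx, h1]
    · have hx1 : x = 1 := (zmod2_cases x).resolve_left hx
      simp [pw, hx1]
  have hBpw : ∀ (k k' : K) (x x' : ZMod 2), B (pw k x) (pw k' x') = B k k' * (x * x') := by
    intro k k' x x'
    by_cases hx : x = 0
    · simp [pw, hx, hB1']
    · have hx1 : x = 1 := (zmod2_cases x).resolve_left hx
      by_cases hx' : x' = 0
      · simp [pw, hx', hB1]
      · have hx1' : x' = 1 := (zmod2_cases x').resolve_left hx'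
        simp [pw, hx1, hx1']
  rw [eval_poly]
  simp only [hφ, hB, hpw, hBpw]
  ring

theorem exists_zero {K : Type*} [Group K] (φ₁ φ₂ : K → ZMod 2) (B₁ B₂ : K → K → ZMod 2)
    (h1 : φ₁ 1 = 0) (h2 : φ₂ 1 = 0)
    (hφ₁ : ∀ x y, φ₁ (x * y) = φ₁ x + φ₁ y + B₁ x y)
    (hφ₂ : ∀ x y, φ₂ (x * y) = φ₂ x + φ₂ y + B₂ x y)
    (hB₁ : ∀ x y z, B₁ (x * y) z = B₁ x z + B₁ y z)
    (hB₂ : ∀ x y z, B₂ (x * y) z = B₂ x z + B₂ y z)
    (k₀ k₁ k₂ k₃ k₄ : K) :
    ∃ x₀ x₁ x₂ x₃ x₄ : ZMod 2, ¬ (x₀ = 0 ∧ x₁ = 0 ∧ x₂ = 0 ∧ x₃ = 0 ∧ x₄ = 0) ∧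
      φ₁ (pw k₀ x₀ * pw k₁ x₁ * pw k₂ x₂ * pw k₃ x₃ * pw k₄ x₄) = 0 ∧
      φ₂ (pw k₀ x₀ * pw k₁ x₁ * pw k₂ x₂ * pw k₃ x₃ * pw k₄ x₄) = 0 := by
  set k : Fin 5 → K := ![k₀, k₁, k₂, k₃, k₄] with hk
  have e1 := phi_eq φ₁ B₁ h1 hφ₁ hB₁ k
  have e2 := phi_eq φ₂ B₂ h2 hφ₂ hB₂ k
  obtain ⟨x, hx, hx1, hx2⟩ := exists_ne_zero _ _
    (totalDegree_poly (fun i => φ₁ (k i)) (fun i j => B₁ (k i) (k j)))
    (totalDegree_poly (fun i => φ₂ (k i)) (fun i j => B₂ (k i) (k j)))
    (by rw [eval_poly]; simp) (by rw [eval_poly]; simp)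
  refine ⟨x 0, x 1, x 2, x 3, x 4, ?_, ?_, ?_⟩
  · rintro ⟨h0, h1, h2, h3, h4⟩
    apply hx
    funext i
    fin_cases i <;> simp [h0, h1, h2, h3, h4]
  · have := e1 x
    rw [hx1] at this
    simpa [hk] using this
  · have := e2 x
    rw [hx2] at this
    simpa [hk] using this

theorem pick {G : Type*} [Group G] [Finite G] (K U : Subgroup G)
    (hbig : 16 * Nat.card U < Nat.card K) (F : ZMod 2 × ZMod 2 × ZMod 2 × ZMod 2 → G) :
    ∃ k ∈ K, ∀ i, ∀ u ∈ U, k ≠ F i * u := by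
  by_contra h
  push Not at h
  choose f hf using fun k : K => h k.1 k.2
  choose g hg using hf
  let φ : K → (ZMod 2 × ZMod 2 × ZMod 2 × ZMod 2) × U := fun k => (f k, ⟨g k, (hg k).1⟩)
  have hinj : Function.Injective φ := by
    intro k k' hkk'
    apply Subtype.ext
    rw [(hg k).2, (hg k').2]
    have h1 : f k = f k' := congrArg Prod.fst hkk'
    have h2 : g k = g k' := congrArg (fun p => (p.2 : G)) hkk'
    rw [h1, h2]
  have := Nat.card_le_card_of_injective φ hinj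
  rw [Nat.card_prod] at this
  have h16 : Nat.card (ZMod 2 × ZMod 2 × ZMod 2 × ZMod 2) = 16 := by
    simp
  rw [h16] at this
  omega

end Cfsg.Agent.Lib.Helper20.CWQuad
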