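import Mathlib
import Cfsg.Agent.Lib.Helper20.Omega

set_option autoImplicit false

namespace Cfsg.Agent.Lib.Helper20.CoprimeAb

open scoped commutatorElement

theorem mem_of_fixed_mod {X : Type*} [Group X] [Finite X] {p : ℕ} [Fact p.Prime] (A P M : Subgroup X)
    (hP : IsPGroup p P) (hAP : A ≤ Subgroup.normalizer (P : Set X))
    (hMP : M ≤ P) (hPM : ⁅P, P⁆ ≤ M) (hPA : P ≤ ⁅P, A⁆) (hAp : (Nat.card A).Coprime p)
    (x : X) (hx : x ∈ P) (hfix : ∀ a ∈ A, x⁻¹ * (a * x * a⁻¹) ∈ M) : x ∈ M := by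
  classical
  obtain ⟨N, hN⟩ : ∃ N : Subgroup ↥P, N = M.subgroupOf P := ⟨_, rfl⟩
  have hcomm : ∀ u v : ↥P, u * v * u⁻¹ * v⁻¹ ∈ N := by
    intro u v
    rw [hN, Subgroup.mem_subgroupOf]
    apply hPM
    have := Subgroup.commutator_mem_commutator u.2 v.2
    simpa [commutatorElement_def] using this
  haveI hNn : N.Normal := by
    constructor
    intro n hn g
    have h1 : g * n * g⁻¹ = (g * n * g⁻¹ * n⁻¹) * n := by group
    rw [h1]
    exact N.mul_mem (hcomm g n) hn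
  letI : CommGroup (↥P ⧸ N) :=
    { (inferInstance : Group (↥P ⧸ N)) with
      mul_comm := by
        intro u v
        induction u using QuotientGroup.induction_on with
        | H u =>
        induction v using QuotientGroup.induction_on with
        | H v =>
        rw [← QuotientGroup.mk_mul, ← QuotientGroup.mk_mul, QuotientGroup.eq]
        have h1 : (u * v)⁻¹ * (v * u) = v⁻¹ * u⁻¹ * v⁻¹⁻¹ * u⁻¹⁻¹ := by group
        rw [h1]
        exact hcomm _ _ }
  letI : Fintype ↥A := Fintype.ofFinite _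
  let cj : ↥A → (↥P →* ↥P) := fun a => (Omega.conjEquiv P a (hAP a.2)).toMonoidHom
  have hcj : ∀ (a : ↥A) (y : ↥P), ((cj a y : ↥P) : X) = a * y * (a : X)⁻¹ := fun a y => rfl
  let T : ↥P →* ↥P ⧸ N := ∏ a : ↥A, (QuotientGroup.mk' N).comp (cj a)
  have hT : ∀ y : ↥P, T y = ∏ a : ↥A, (QuotientGroup.mk' N) (cj a y) := by
    intro y
    simp [T, MonoidHom.finset_prod_apply]
  have hTc : ∀ (a₀ : ↥A) (y : ↥P), T (cj a₀ y) = T y := by
    intro a₀ y
    rw [hT, hT]
    apply Fintype.prod_equiv (Equiv.mulRight a₀)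
    intro a
    congr 1
    apply Subtype.ext
    rw [hcj, hcj, hcj]
    simp [mul_assoc]
  have hker : ∀ y : ↥P, T y = 1 := by
    intro y
    have h1 : (y : X) ∈ ⁅P, A⁆ := hPA y.2
    have h2 : ⁅P, A⁆ ≤ (T.ker).map P.subtype := by
      rw [Subgroup.commutator_le]
      intro u hu a ha
      refine Subgroup.mem_map.2 ⟨⟨u, hu⟩ * (cj ⟨a, ha⟩ ⟨u, hu⟩)⁻¹, ?_, ?_⟩
      · rw [MonoidHom.mem_ker, map_mul, map_inv, hTc, mul_inv_cancel]
      · simp only [Subgroup.coe_subtype, Subgroup.coe_mul, Subgroup.coe_inv, hcj,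
          commutatorElement_def]
        group
    obtain ⟨z, hz, hzy⟩ := Subgroup.mem_map.1 (h2 h1)
    have : z = y := Subtype.ext hzy
    rw [← this]
    exact MonoidHom.mem_ker.1 hz
  have hTx : T ⟨x, hx⟩ = (QuotientGroup.mk' N ⟨x, hx⟩) ^ (Nat.card A) := by
    rw [hT, Nat.card_eq_fintype_card, ← Finset.card_univ, ← Finset.prod_const]
    apply Finset.prod_congr rfl
    intro a _
    rw [QuotientGroup.mk'_apply, QuotientGroup.mk'_apply, QuotientGroup.eq, hN,
      Subgroup.mem_subgroupOf]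
    have h1 := M.inv_mem (hfix a a.2)
    have h2 : (((cj a ⟨x, hx⟩)⁻¹ * ⟨x, hx⟩ : ↥P) : X) = (x⁻¹ * (a * x * (a : X)⁻¹))⁻¹ := by
      simp only [Subgroup.coe_mul, Subgroup.coe_inv, hcj]
      group
    rw [h2]
    exact h1
  have h1 : orderOf (QuotientGroup.mk' N ⟨x, hx⟩) ∣ Nat.card A := by
    apply orderOf_dvd_of_pow_eq_one
    rw [← hTx]
    exact hker _
  obtain ⟨k, hk⟩ := (IsPGroup.iff_orderOf.mp hP) ⟨x, hx⟩
  have h2 : orderOf (QuotientGroup.mk' N ⟨x, hx⟩) ∣ p ^ k := by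
    rw [← hk]
    exact orderOf_map_dvd _ _
  have h3 : orderOf (QuotientGroup.mk' N ⟨x, hx⟩) = 1 := by
    have hcop : Nat.Coprime (Nat.card A) (p ^ k) := Nat.Coprime.pow_right k hAp
    have := Nat.dvd_gcd h1 h2
    rw [hcop] at this
    exact Nat.dvd_one.1 this
  rw [orderOf_eq_one_iff, QuotientGroup.mk'_apply, QuotientGroup.eq_one_iff, hN,
    Subgroup.mem_subgroupOf] at h3
  exact h3

end Cfsg.Agent.Lib.Helper20.CoprimeAb
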