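import Mathlib
import Cfsg.Agent.Lib.Helper9.Coprime
import Cfsg.Agent.Lib.Helper10.Coprime

set_option autoImplicit false

namespace Cfsg.Agent.Lib.Helper20.CosetFix

open scoped commutatorElement

theorem coset_fixed {X : Type*} [Group X] [Finite X] (A : Subgroup X)
    (hAab : ∀ a ∈ A, ∀ b ∈ A, a * b = b * a) :
    ∀ (n : ℕ) (K : Subgroup X) (g : X), Nat.card K = n → A ≤ Subgroup.normalizer (K : Set X) →
      (Nat.card A).Coprime (Nat.card K) → (∀ a ∈ A, g⁻¹ * (a * g * a⁻¹) ∈ K) →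
      ∃ k ∈ K, ∀ a ∈ A, a * (g * k) = (g * k) * a := by
  classical
  intro n
  induction n using Nat.strong_induction_on with
  | _ n ih =>
    intro K g hn hAK hcop hg
    have hconjK : ∀ a ∈ A, ∀ k ∈ K, a * k * a⁻¹ ∈ K := fun a ha k hk =>
      (Subgroup.mem_normalizer_iff.1 (hAK ha) k).1 hk
    by_cases hcent : ∀ a ∈ A, ∀ k ∈ K, a * k = k * a
    · refine ⟨1, K.one_mem, ?_⟩
      intro a ha
      rw [mul_one]
      have hκ : ∀ m : ℕ, g⁻¹ * (a ^ m * g * (a ^ m)⁻¹) = (g⁻¹ * (a * g * a⁻¹)) ^ m := by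
        intro m
        induction m with
        | zero => simp
        | succ m ihm =>
          rw [pow_succ (g⁻¹ * (a * g * a⁻¹)), ← ihm]
          have hc : Commute (a ^ m) (g⁻¹ * (a * g * a⁻¹)) :=
            hcent (a ^ m) (A.pow_mem ha m) _ (hg a ha)
          have e1 : g⁻¹ * (a ^ (m + 1) * g * (a ^ (m + 1))⁻¹) =
              g⁻¹ * a ^ m * g * ((g⁻¹ * (a * g * a⁻¹)) * (a ^ m)⁻¹) := by
            rw [pow_succ]; group
          have e2 : (g⁻¹ * (a * g * a⁻¹)) * (a ^ m)⁻¹ = (a ^ m)⁻¹ * (g⁻¹ * (a * g * a⁻¹)) :=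
            (hc.inv_left).eq.symm
          rw [e1, e2]; group
      have h1 : (g⁻¹ * (a * g * a⁻¹)) ^ orderOf a = 1 := by
        rw [← hκ, pow_orderOf_eq_one]; group
      have h2 : orderOf (g⁻¹ * (a * g * a⁻¹)) ∣ orderOf a := orderOf_dvd_of_pow_eq_one h1
      have h3 : orderOf a ∣ Nat.card A := by
        have := orderOf_dvd_natCard (⟨a, ha⟩ : ↥A)
        rwa [Subgroup.orderOf_mk] at this
      have h4 : orderOf (g⁻¹ * (a * g * a⁻¹)) ∣ Nat.card K := by
        have := orderOf_dvd_natCard (⟨_, hg a ha⟩ : ↥K)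
        rwa [Subgroup.orderOf_mk] at this
      have h5 : orderOf (g⁻¹ * (a * g * a⁻¹)) = 1 := by
        have := Nat.dvd_gcd (h2.trans h3) h4
        rw [hcop] at this
        exact Nat.dvd_one.1 this
      rw [orderOf_eq_one_iff, inv_mul_eq_one] at h5
      exact mul_inv_eq_iff_eq_mul.1 h5.symm
    · push Not at hcent
      obtain ⟨a₀, ha₀, k₀, hk₀, hne⟩ := hcent
      obtain ⟨C, hCdef⟩ : ∃ C : Subgroup ↥A,
        C = (Subgroup.centralizer (K : Set X)).subgroupOf A := ⟨_, rfl⟩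
      have hCne : C ≠ ⊤ := by
        intro htop
        have h1 : (⟨a₀, ha₀⟩ : ↥A) ∈ C := by rw [htop]; trivial
        rw [hCdef, Subgroup.mem_subgroupOf, Subgroup.mem_centralizer_iff] at h1
        exact hne (h1 k₀ hk₀).symm
      have hidx : C.index ≠ 1 := fun h => hCne (Subgroup.index_eq_one.1 h)
      obtain ⟨q, hq, hqdvd⟩ := Nat.exists_prime_and_dvd hidx
      haveI : Fact q.Prime := ⟨hq⟩
      obtain ⟨Q⟩ : Nonempty (Sylow q ↥A) := inferInstance
      have hQC : ¬ (Q : Subgroup ↥A) ≤ C := by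
        intro hle
        have h1 : C.index ∣ (Q : Subgroup ↥A).index := Subgroup.index_dvd_of_le hle
        exact Q.not_dvd_index (hqdvd.trans h1)
      obtain ⟨x, hxQ, hxC⟩ := SetLike.not_le_iff_exists.1 hQC
      obtain ⟨e, he⟩ := (Q.isPGroup' ⟨x, hxQ⟩)
      obtain ⟨a₁, ha₁def⟩ : ∃ a₁ : X, a₁ = (x : X) := ⟨_, rfl⟩
      have ha₁A : a₁ ∈ A := by rw [ha₁def]; exact x.2
      have ha₁q : a₁ ^ (q ^ e) = 1 := by
        have h1 := congrArg (fun z : ↥(Q : Subgroup ↥A) => ((z : ↥A) : X)) he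
        simpa [ha₁def] using h1
      have ha₁ne : ¬ ∀ k ∈ K, k * a₁ = a₁ * k := by
        intro h
        apply hxC
        rw [hCdef, Subgroup.mem_subgroupOf, Subgroup.mem_centralizer_iff]
        rw [← ha₁def]; exact h
      have hqA : q ∣ Nat.card A := hqdvd.trans (Subgroup.index_dvd_card C)
      have hqK : ¬ q ∣ Nat.card K := by
        intro h
        have h1 := Nat.dvd_gcd hqA h
        rw [hcop] at h1
        exact hq.one_lt.ne' (Nat.dvd_one.1 h1)
      obtain ⟨T, hT⟩ : ∃ T : Set X, T = {y | g⁻¹ * y ∈ K} := ⟨_, rfl⟩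
      have hTmem : ∀ y, y ∈ T ↔ g⁻¹ * y ∈ K := by intro y; rw [hT]; rfl
      have hTinv : ∀ a ∈ A, ∀ y ∈ T, a * y * a⁻¹ ∈ T := by
        intro a ha y hy
        rw [hTmem] at hy ⊢
        have h1 : g⁻¹ * (a * y * a⁻¹) = (g⁻¹ * (a * g * a⁻¹)) * (a * (g⁻¹ * y) * a⁻¹) := by group
        rw [h1]
        exact K.mul_mem (hg a ha) (hconjK a ha _ hy)
      letI : MulAction ↥(Q : Subgroup ↥A) ↥T :=
        { smul := fun z y => ⟨((z : ↥A) : X) * y * ((z : ↥A) : X)⁻¹, hTinv _ (z : ↥A).2 y y.2⟩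
          one_smul := fun y => Subtype.ext (by
            show (((1 : ↥(Q : Subgroup ↥A)) : ↥A) : X) * y * (((1 : ↥(Q : Subgroup ↥A)) : ↥A) : X)⁻¹ = y
            simp)
          mul_smul := fun z w y => Subtype.ext (by
            show (((z * w : ↥(Q : Subgroup ↥A)) : ↥A) : X) * y * (((z * w : ↥(Q : Subgroup ↥A)) : ↥A) : X)⁻¹ =
              ((z : ↥A) : X) * (((w : ↥A) : X) * y * ((w : ↥A) : X)⁻¹) * ((z : ↥A) : X)⁻¹
            simp [mul_assoc]) }
      have hTcard : Nat.card ↥T = Nat.card K := by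
        apply Nat.card_congr
        exact
          { toFun := fun y => ⟨g⁻¹ * y, (hTmem y).1 y.2⟩
            invFun := fun k => ⟨g * k, (hTmem _).2 (by rw [inv_mul_cancel_left]; exact k.2)⟩
            left_inv := fun y => Subtype.ext (by simp)
            right_inv := fun k => Subtype.ext (by simp) }
      have hfix := (Q.isPGroup').nonempty_fixed_point_of_prime_not_dvd_card ↥T
        (by rw [hTcard]; exact hqK)
      obtain ⟨c₁, hc₁⟩ := hfix
      have hc₁a : a₁ * (c₁ : X) * a₁⁻¹ = c₁ := by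
        have h3 := hc₁ ⟨x, hxQ⟩
        have h4 := congrArg Subtype.val h3
        rw [ha₁def]
        exact h4
      have hc₁comm : Commute a₁ (c₁ : X) := mul_inv_eq_iff_eq_mul.1 hc₁a
      obtain ⟨K₁, hK₁⟩ : ∃ K₁, K₁ = K ⊓ Subgroup.centralizer ({a₁} : Set X) := ⟨_, rfl⟩
      have hK₁K : K₁ ≤ K := by rw [hK₁]; exact inf_le_left
      have hK₁ne : K₁ ≠ K := by
        intro h
        apply ha₁ne
        intro k hk
        have h3 : k ∈ K₁ := by rw [h]; exact hk
        rw [hK₁] at h3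
        exact Subgroup.mem_centralizer_singleton_iff.1 (Subgroup.mem_inf.1 h3).2
      have hK₁card : Nat.card K₁ < n := by
        rw [← hn]; exact Cfsg.Agent.Lib.Helper9.card_lt_of_le_of_ne hK₁K hK₁ne
      have hAK₁ : A ≤ Subgroup.normalizer (K₁ : Set X) := by
        intro a ha
        apply Cfsg.Agent.Lib.Helper10.Coprime.mem_normalizer_of_conj_mem
        intro k hk
        rw [hK₁] at hk ⊢
        obtain ⟨hkK, hkc⟩ := Subgroup.mem_inf.1 hk
        refine Subgroup.mem_inf.2 ⟨hconjK a ha k hkK, Subgroup.mem_centralizer_singleton_iff.2 ?_⟩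
        have ck : Commute a₁ k := (Subgroup.mem_centralizer_singleton_iff.1 hkc).symm
        have ca : Commute a₁ a := (hAab a ha a₁ ha₁A).symm
        exact ((ca.mul_right ck).mul_right ca.inv_right).eq.symm
      have hcop₁ : (Nat.card A).Coprime (Nat.card K₁) :=
        Nat.Coprime.coprime_dvd_right (Subgroup.card_dvd_of_le hK₁K) hcop
      have hg₁ : ∀ a ∈ A, (c₁ : X)⁻¹ * (a * c₁ * a⁻¹) ∈ K₁ := by
        intro a ha
        rw [hK₁]
        refine Subgroup.mem_inf.2 ⟨?_, Subgroup.mem_centralizer_singleton_iff.2 ?_⟩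
        · have h3 : (c₁ : X)⁻¹ * (a * c₁ * a⁻¹) = (g⁻¹ * c₁)⁻¹ * (g⁻¹ * (a * c₁ * a⁻¹)) := by
            group
          rw [h3]
          exact K.mul_mem (K.inv_mem ((hTmem _).1 c₁.2)) ((hTmem _).1 (hTinv a ha c₁ c₁.2))
        · have ca : Commute a₁ a := (hAab a ha a₁ ha₁A).symm
          exact (hc₁comm.inv_right.mul_right ((ca.mul_right hc₁comm).mul_right ca.inv_right)).eq.symm
      obtain ⟨k', hk', hfin⟩ := ih _ hK₁card K₁ c₁ rfl hAK₁ hcop₁ hg₁
      refine ⟨g⁻¹ * c₁ * k', K.mul_mem ((hTmem _).1 c₁.2) (hK₁K hk'), ?_⟩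
      intro a ha
      have h3 : g * (g⁻¹ * c₁ * k') = c₁ * k' := by group
      rw [h3]; exact hfin a ha

theorem coprime_factor {X : Type*} [Group X] [Finite X] (A H : Subgroup X)
    (hAab : ∀ a ∈ A, ∀ b ∈ A, a * b = b * a)
    (hAH : A ≤ Subgroup.normalizer (H : Set X)) (hcop : (Nat.card A).Coprime (Nat.card H))
    (h : X) (hh : h ∈ H) :
    ∃ c ∈ H ⊓ Subgroup.centralizer (A : Set X), ∃ k ∈ ⁅H, A⁆, h = c * k := by
  have hKH : ⁅H, A⁆ ≤ H := Cfsg.Agent.Lib.Helper10.Coprime.commutator_le_of_le_normalizer H A hAH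
  have hAK : A ≤ Subgroup.normalizer ((⁅H, A⁆ : Subgroup X) : Set X) :=
    Cfsg.Agent.Lib.Helper10.Coprime.le_normalizer_commutator_right H A
  have hcop' : (Nat.card A).Coprime (Nat.card ↥⁅H, A⁆) :=
    Nat.Coprime.coprime_dvd_right (Subgroup.card_dvd_of_le hKH) hcop
  obtain ⟨k, hk, hfix⟩ := coset_fixed A hAab _ ⁅H, A⁆ h rfl hAK hcop' (by
    intro a ha
    have h1 : h⁻¹ * (a * h * a⁻¹) = ⁅h⁻¹, a⁆ := by rw [commutatorElement_def]; group
    rw [h1]
    exact Subgroup.commutator_mem_commutator (H.inv_mem hh) ha)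
  refine ⟨h * k, Subgroup.mem_inf.2 ⟨H.mul_mem hh (hKH hk),
    Subgroup.mem_centralizer_iff.2 (fun a ha => hfix a ha)⟩, k⁻¹, Subgroup.inv_mem _ hk, by group⟩

end Cfsg.Agent.Lib.Helper20.CosetFix
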