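import Mathlib
import Cfsg.Agent.Lib.Helper20.HSGroup

namespace Cfsg.Agent.Lib.Helper20.HS

open Finset

section FrobK

variable {F : Type*} [Field F] {V : Type*} [AddCommGroup V] [Module F V]

theorem lin_pow_comm {Q : Type*} [Group Q] (ρ : Q →* Module.End F V) (σ : MulAut Q)
    (u : Module.End F V) (hσ : ∀ g, u * ρ g = ρ (σ g) * u) (i : ℕ) :
    ∀ g : Q, u ^ i * ρ g = ρ ((σ ^ i) g) * u ^ i := by
  induction i with
  | zero =>
    intro g
    simp
  | succ i ih =>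
    intro g
    rw [pow_succ, mul_assoc, hσ g, ← mul_assoc, ih (σ g), mul_assoc, ← pow_succ]
    rfl

theorem lin_frob_apply {Z : Type*} [Group Z] [Fintype Z] (ρ : Z →* Module.End F V)
    (σ : MulAut Z) (u : Module.End F V) (hσ : ∀ g, u * ρ g = ρ (σ g) * u) (r : ℕ) (hr0 : 0 < r)
    (hfpf : ∀ i, 0 < i → i < r → ∀ g, (σ ^ i) g = g → g = 1) (x : V)
    (hx : ∀ i, (∑ z : Z, ρ z) ((u ^ i) x) = 0) :
    ∑ z : Z, ρ z ((∑ i ∈ range r, u ^ i) (ρ z⁻¹ x)) = (Fintype.card Z : F) • x := by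
  classical
  have hpow' : ∀ (i : ℕ) (g : Z) (a : V), (u ^ i) (ρ g a) = ρ ((σ ^ i) g) ((u ^ i) a) := by
    intro i g a
    have := congrArg (fun f : Module.End F V => f a) (lin_pow_comm ρ σ u hσ i g)
    simpa [Module.End.mul_apply] using this
  have hbij : ∀ i, 0 < i → i < r → Function.Bijective (fun g : Z => g * (σ ^ i) g⁻¹) := by
    intro i hi hir
    apply Finite.injective_iff_bijective.mp
    intro g h hgh
    simp only at hgh
    have h1 : (σ ^ i) (h⁻¹ * g) = h⁻¹ * g := by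
      rw [map_mul, map_inv]
      rw [map_inv, map_inv] at hgh
      generalize (σ ^ i) g = sg at hgh ⊢
      generalize (σ ^ i) h = sh at hgh ⊢
      calc sh⁻¹ * sg = h⁻¹ * (h * sh⁻¹) * sg := by group
        _ = h⁻¹ * (g * sg⁻¹) * sg := by rw [hgh]
        _ = h⁻¹ * g := by group
    have h4 := hfpf i hi hir _ h1
    exact (inv_mul_eq_one.mp h4).symm
  have h1 : ∀ z : Z, ρ z ((∑ i ∈ range r, u ^ i) (ρ z⁻¹ x))
      = ∑ i ∈ range r, ρ (z * (σ ^ i) z⁻¹) ((u ^ i) x) := by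
    intro z
    rw [LinearMap.sum_apply, map_sum]
    apply Finset.sum_congr rfl
    intro i _
    rw [hpow', map_mul, Module.End.mul_apply]
  rw [Finset.sum_congr rfl (fun z _ => h1 z), Finset.sum_comm]
  rw [Finset.sum_eq_single_of_mem 0 (mem_range.mpr hr0)]
  · simp only [pow_zero, MulAut.one_apply, mul_inv_cancel, map_one, Module.End.one_apply,
      Finset.sum_const, Finset.card_univ]
    rw [Nat.cast_smul_eq_nsmul]
  · intro i hi hi0
    have h2 := Function.Bijective.sum_comp (hbij i (Nat.pos_of_ne_zero hi0) (mem_range.mp hi))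
      (fun g => ρ g ((u ^ i) x))
    rw [h2]
    have h3 := hx i
    rw [LinearMap.sum_apply] at h3
    exact h3

theorem lin_step {Q : Type*} [Group Q] [Finite Q] (ρ : Q →* Module.End F V) (σ : MulAut Q)
    (u : Module.End F V) (hσ : ∀ g, u * ρ g = ρ (σ g) * u) (r : ℕ) (hr : r.Prime)
    (hσr : σ ^ r = 1) (hfpf : ∀ g, σ g = g → g = 1) (hQF : (Nat.card Q : F) ≠ 0) (w₀ : V)
    (hrank : ∀ x, ∃ c : F, (∑ i ∈ range r, u ^ i) x = c • w₀)
    (Z₁ Z₂ : Subgroup Q) (hZ₁n : Z₁.Normal) (hZ₂n : Z₂.Normal)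
    (hZ₁σ' : ∀ z ∈ Z₁, σ.symm z ∈ Z₁)
    (hZ₂σ : ∀ z ∈ Z₂, σ z ∈ Z₂) (hZ₂σ' : ∀ z ∈ Z₂, σ.symm z ∈ Z₂)
    (hcomm12 : ∀ z ∈ Z₂, ∀ g : Q, z * g * z⁻¹ * g⁻¹ ∈ Z₁)
    (hD₂ : ∀ v, (∀ z ∈ Z₂, ρ z v = v) → ∀ g h, ρ g (ρ h v) = ρ h (ρ g v)) :
    ∀ v, (∀ z ∈ Z₁, ρ z v = v) → ∀ g h, ρ g (ρ h v) = ρ h (ρ g v) := by
  classical
  haveI : Fintype Q := Fintype.ofFinite Q
  let ρZ : ↥Z₂ →* Module.End F V := ρ.comp Z₂.subtype
  let σZ : MulAut ↥Z₂ :=
    { toFun := fun z => ⟨σ (z : Q), hZ₂σ z z.2⟩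
      invFun := fun z => ⟨σ.symm (z : Q), hZ₂σ' z z.2⟩
      left_inv := fun z => Subtype.ext (σ.symm_apply_apply (z : Q))
      right_inv := fun z => Subtype.ext (σ.apply_symm_apply (z : Q))
      map_mul' := fun a b => Subtype.ext (map_mul σ (a : Q) (b : Q)) }
  have hσZ : ∀ z, u * ρZ z = ρZ (σZ z) * u := fun z => hσ z
  have hσZpow : ∀ (i : ℕ) (z : ↥Z₂), (((σZ ^ i) z : ↥Z₂) : Q) = (σ ^ i) z := by
    intro i
    induction i with
    | zero =>
      intro z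
      simp
    | succ i ih =>
      intro z
      rw [pow_succ, pow_succ, MulAut.mul_apply, MulAut.mul_apply, ih]
      rfl
  have hfpfZ : ∀ i, 0 < i → i < r → ∀ z, (σZ ^ i) z = z → z = 1 := by
    intro i hi hir z hz
    apply Subtype.ext
    apply hfpf
    have hg : (σ ^ i) (z : Q) = z := by
      rw [← hσZpow, hz]
    have hcop : Nat.Coprime i r := by
      rw [Nat.coprime_comm]
      exact (Nat.Prime.coprime_iff_not_dvd hr).mpr (fun h => by
        have := Nat.le_of_dvd hi h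
        omega)
    obtain ⟨m, -, hm⟩ := Nat.exists_mul_mod_eq_one_of_coprime hcop hr.one_lt
    have h1 : ∀ n : ℕ, ((σ ^ i) ^ n) (z : Q) = z := by
      intro n
      induction n with
      | zero => simp
      | succ n ih => rw [pow_succ, MulAut.mul_apply, hg, ih]
    have h2 : (σ ^ i) ^ m = σ := by
      rw [← pow_mul, ← Nat.div_add_mod (i * m) r, hm, pow_add, pow_mul, hσr, one_pow, one_mul,
        pow_one]
    have h3 := h1 m
    rw [h2] at h3
    exact h3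
  obtain ⟨S, hSdef⟩ : ∃ S : Module.End F V, S = ∑ z : ↥Z₂, ρZ z := ⟨_, rfl⟩
  obtain ⟨T, hTdef⟩ : ∃ T : Module.End F V, T = ∑ i ∈ range r, u ^ i := ⟨_, rfl⟩
  have hS : ∀ v, S v = ∑ z : ↥Z₂, ρ (z : Q) v := by
    intro v
    rw [hSdef, LinearMap.sum_apply]
    rfl
  obtain ⟨n, hndef⟩ : ∃ n : F, n = (Fintype.card ↥Z₂ : F) := ⟨_, rfl⟩
  have hn : n ≠ 0 := by
    rw [hndef]
    intro h
    apply hQF
    have h1 : Nat.card ↥Z₂ ∣ Nat.card Q := Subgroup.card_subgroup_dvd_card Z₂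
    obtain ⟨k, hk⟩ := h1
    rw [hk, Nat.cast_mul, Nat.card_eq_fintype_card, h, zero_mul]
  have hD₁g : ∀ v, (∀ z ∈ Z₁, ρ z v = v) → ∀ g, ∀ z ∈ Z₁, ρ z (ρ g v) = ρ g v := by
    intro v hv g z hz
    have h1 : g⁻¹ * z * g ∈ Z₁ := by
      have := hZ₁n.conj_mem z hz g⁻¹
      simpa using this
    have h2 : z * g = g * (g⁻¹ * z * g) := by group
    rw [← Module.End.mul_apply, ← map_mul, h2, map_mul, Module.End.mul_apply, hv _ h1]
  have hD₁u : ∀ v, (∀ z ∈ Z₁, ρ z v = v) → ∀ z ∈ Z₁, ρ z (u v) = u v := by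
    intro v hv z hz
    have h1 := hσ (σ.symm z)
    rw [σ.apply_symm_apply] at h1
    rw [← Module.End.mul_apply, ← h1, Module.End.mul_apply, hv _ (hZ₁σ' z hz)]
  have hSg : ∀ g v, S (ρ g v) = ρ g (S v) := by
    intro g v
    rw [hS, hS, map_sum]
    have h1 : ∀ z : ↥Z₂, ρ (z : Q) (ρ g v) = ρ g (ρ ((MulAut.conjNormal g⁻¹ z : ↥Z₂) : Q) v) := by
      intro z
      rw [← Module.End.mul_apply, ← map_mul, ← Module.End.mul_apply, ← map_mul]
      congr 2
      rw [MulAut.conjNormal_apply]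
      group
    rw [Finset.sum_congr rfl (fun z _ => h1 z)]
    exact Equiv.sum_comp (MulAut.conjNormal g⁻¹ : MulAut ↥Z₂).toEquiv (fun z => ρ g (ρ (z : Q) v))
  have hSu : ∀ v, S (u v) = u (S v) := by
    intro v
    rw [hS, hS, map_sum]
    have h1 : ∀ z : ↥Z₂, u (ρ (z : Q) v) = ρ ((σZ z : ↥Z₂) : Q) (u v) := by
      intro z
      have h := congrArg (fun f : Module.End F V => f v) (hσ (z : Q))
      simp only [Module.End.mul_apply] at h
      exact h
    rw [Finset.sum_congr rfl (fun z _ => h1 z)]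
    exact (Equiv.sum_comp σZ.toEquiv (fun z => ρ (z : Q) (u v))).symm
  have hSupow : ∀ (i : ℕ) v, S ((u ^ i) v) = (u ^ i) (S v) := by
    intro i
    induction i with
    | zero =>
      intro v
      simp
    | succ i ih =>
      intro v
      simp only [pow_succ, Module.End.mul_apply, ih, hSu]
  have hzS : ∀ z ∈ Z₂, ∀ v, ρ z (S v) = S v := by
    intro z hz v
    rw [hS, map_sum]
    have h1 : ∀ z' : ↥Z₂, ρ z (ρ (z' : Q) v) = ρ (((⟨z, hz⟩ : ↥Z₂) * z' : ↥Z₂) : Q) v := by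
      intro z'
      rw [← Module.End.mul_apply, ← map_mul]
      rfl
    rw [Finset.sum_congr rfl (fun z' _ => h1 z')]
    exact Function.Bijective.sum_comp (Group.mulLeft_bijective (⟨z, hz⟩ : ↥Z₂))
      (fun z' => ρ (z' : Q) v)
  have hSS : ∀ v, S (S v) = n • S v := by
    intro v
    rw [hS (S v)]
    rw [Finset.sum_congr rfl (fun (z : ↥Z₂) _ => hzS z z.2 v)]
    rw [Finset.sum_const, Finset.card_univ, hndef, Nat.cast_smul_eq_nsmul]
  have hcent : ∀ z ∈ Z₂, ∀ g, ∀ y, (∀ z ∈ Z₁, ρ z y = y) → ρ g (ρ z y) = ρ z (ρ g y) := by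
    intro z hz g y hy
    have h1 : g⁻¹ * z⁻¹ * g * z ∈ Z₁ := by
      have h2 := hcomm12 z⁻¹ (inv_mem hz) g
      have h3 := hZ₁n.conj_mem _ h2 g⁻¹
      have e : g⁻¹ * (z⁻¹ * g * z⁻¹⁻¹ * g⁻¹) * g⁻¹⁻¹ = g⁻¹ * z⁻¹ * g * z := by group
      rwa [e] at h3
    have h4 : g * z = z * g * (g⁻¹ * z⁻¹ * g * z) := by group
    rw [← Module.End.mul_apply, ← map_mul, h4, map_mul, map_mul, Module.End.mul_apply,
      Module.End.mul_apply, hy _ h1]
  have hD₁upow : ∀ (i : ℕ) v, (∀ z ∈ Z₁, ρ z v = v) → ∀ z ∈ Z₁, ρ z ((u ^ i) v) = (u ^ i) v := by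
    intro i
    induction i with
    | zero =>
      intro v hv z hz
      simpa using hv z hz
    | succ i ih =>
      intro v hv z hz
      rw [pow_succ, Module.End.mul_apply]
      exact ih (u v) (hD₁u v hv) z hz
  obtain ⟨𝓑, h𝓑⟩ : ∃ 𝓑 : Submodule F (Module.End F V), 𝓑 = Submodule.span F (Set.range ρZ) :=
    ⟨_, rfl⟩
  have hB1 : ∀ β ∈ 𝓑, ∀ g y, (∀ z ∈ Z₁, ρ z y = y) → ρ g (β y) = β (ρ g y) := by
    intro β hβ g y hy
    rw [h𝓑] at hβ
    induction hβ using Submodule.span_induction with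
    | mem β hβ =>
      obtain ⟨z, rfl⟩ := hβ
      exact hcent z z.2 g y hy
    | zero => simp
    | add a b _ _ ha hb => rw [LinearMap.add_apply, LinearMap.add_apply, map_add, ha, hb]
    | smul c a _ ha => rw [LinearMap.smul_apply, LinearMap.smul_apply, map_smul, ha]
  have hB3 : ∀ β ∈ 𝓑, ∀ β' ∈ 𝓑, ∀ y, (∀ z ∈ Z₁, ρ z y = y) → β (β' y) = β' (β y) := by
    intro β hβ β' hβ' y hy
    rw [h𝓑] at hβ
    induction hβ using Submodule.span_induction with
    | mem β hβ =>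
      obtain ⟨z, rfl⟩ := hβ
      exact hB1 β' hβ' z y hy
    | zero => simp
    | add a b _ _ ha hb => rw [LinearMap.add_apply, LinearMap.add_apply, map_add, ha, hb]
    | smul c a _ ha => rw [LinearMap.smul_apply, LinearMap.smul_apply, map_smul, ha]
  have hEexp : ∀ x, (∀ z ∈ Z₁, ρ z x = x) → S x = 0 → ∃ β ∈ 𝓑, x = β w₀ := by
    intro x hx1 hx2
    have hx : ∀ i, (∑ z : ↥Z₂, ρZ z) ((u ^ i) x) = 0 := by
      intro i
      rw [← hSdef, hSupow, hx2, map_zero]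
    have h1 := lin_frob_apply ρZ σZ u hσZ r hr.pos hfpfZ x hx
    choose c hc using fun z : ↥Z₂ => hrank (ρZ z⁻¹ x)
    refine ⟨n⁻¹ • ∑ z : ↥Z₂, c z • ρZ z, ?_, ?_⟩
    · rw [h𝓑]
      apply Submodule.smul_mem
      apply Submodule.sum_mem
      intro z _
      apply Submodule.smul_mem
      exact Submodule.subset_span ⟨z, rfl⟩
    · rw [LinearMap.smul_apply, LinearMap.sum_apply]
      have h2 : ∀ z : ↥Z₂, (c z • ρZ z) w₀ = ρZ z ((∑ i ∈ range r, u ^ i) (ρZ z⁻¹ x)) := by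
        intro z
        rw [hc z, map_smul, LinearMap.smul_apply]
      rw [Finset.sum_congr rfl (fun z _ => h2 z), h1, ← hndef, smul_smul, inv_mul_cancel₀ hn,
        one_smul]
  intro v hv g h
  obtain ⟨v₁, hv₁def⟩ : ∃ v₁, v₁ = n⁻¹ • S v := ⟨_, rfl⟩
  obtain ⟨v₂, hv₂def⟩ : ∃ v₂, v₂ = v - v₁ := ⟨_, rfl⟩
  have hv₁ : ∀ z ∈ Z₂, ρ z v₁ = v₁ := by
    intro z hz
    rw [hv₁def, map_smul, hzS z hz]
  have hSv₁ : S v₁ = S v := by
    rw [hv₁def, map_smul, hSS, smul_smul, inv_mul_cancel₀ hn, one_smul]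
  have hv₁D : ∀ z ∈ Z₁, ρ z v₁ = v₁ := by
    intro z hz
    rw [hv₁def, map_smul, ← hSg, hv z hz]
  have hv₂D : ∀ z ∈ Z₁, ρ z v₂ = v₂ := by
    intro z hz
    rw [hv₂def, map_sub, hv z hz, hv₁D z hz]
  have hv₂S : S v₂ = 0 := by
    rw [hv₂def, map_sub, hSv₁, sub_self]
  have key : ρ g (ρ h v₂) = ρ h (ρ g v₂) := by
    by_cases hv₂0 : v₂ = 0
    · rw [hv₂0]
      simp
    have hw₀ : (∀ z ∈ Z₁, ρ z w₀ = w₀) ∧ S w₀ = 0 := by
      by_contra hcon
      apply hv₂0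
      have hT0 : ∀ y, (∀ z ∈ Z₁, ρ z y = y) → S y = 0 → T y = 0 := by
        intro y hy1 hy2
        obtain ⟨c, hc⟩ := hrank y
        rw [← hTdef] at hc
        by_contra hne
        apply hcon
        have hc0 : c ≠ 0 := by
          rintro rfl
          rw [zero_smul] at hc
          exact hne hc
        have hw : w₀ = c⁻¹ • T y := by
          rw [hc, smul_smul, inv_mul_cancel₀ hc0, one_smul]
        have hTy1 : ∀ z ∈ Z₁, ρ z (T y) = T y := by
          intro z hz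
          rw [hTdef, LinearMap.sum_apply, map_sum]
          apply Finset.sum_congr rfl
          intro i _
          exact hD₁upow i y hy1 z hz
        have hTy2 : S (T y) = 0 := by
          rw [hTdef, LinearMap.sum_apply, map_sum]
          apply Finset.sum_eq_zero
          intro i _
          rw [hSupow, hy2, map_zero]
        rw [hw]
        exact ⟨fun z hz => by rw [map_smul, hTy1 z hz], by rw [map_smul, hTy2, smul_zero]⟩
      have hx : ∀ i, (∑ z : ↥Z₂, ρZ z) ((u ^ i) v₂) = 0 := by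
        intro i
        rw [← hSdef, hSupow, hv₂S, map_zero]
      have h1 := lin_frob_apply ρZ σZ u hσZ r hr.pos hfpfZ v₂ hx
      have h2 : ∀ z : ↥Z₂, ρZ z ((∑ i ∈ range r, u ^ i) (ρZ z⁻¹ v₂)) = 0 := by
        intro z
        have h3 : T (ρZ z⁻¹ v₂) = 0 :=
          hT0 _ (hD₁g v₂ hv₂D ((z⁻¹ : ↥Z₂) : Q))
            (by
              show S (ρ ((z⁻¹ : ↥Z₂) : Q) v₂) = 0
              rw [hSg, hv₂S, map_zero])
        rw [← hTdef, h3, map_zero]
      rw [Finset.sum_congr rfl (fun z _ => h2 z), Finset.sum_const_zero, ← hndef] at h1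
      exact (smul_eq_zero.mp h1.symm).resolve_left hn
    obtain ⟨hw₀D, hw₀S⟩ := hw₀
    obtain ⟨βx, hβx, hx⟩ := hEexp v₂ hv₂D hv₂S
    obtain ⟨βg, hβg, hg⟩ := hEexp (ρ g w₀) (hD₁g w₀ hw₀D g) (by rw [hSg, hw₀S, map_zero])
    obtain ⟨βh, hβh, hh⟩ := hEexp (ρ h w₀) (hD₁g w₀ hw₀D h) (by rw [hSg, hw₀S, map_zero])
    have e1 : ρ g (ρ h v₂) = βx (βh (βg w₀)) := by
      rw [hx, hB1 βx hβx h w₀ hw₀D, hB1 βx hβx g _ (hD₁g w₀ hw₀D h), hh, hB1 βh hβh g w₀ hw₀D,
        hg]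
    have e2 : ρ h (ρ g v₂) = βx (βg (βh w₀)) := by
      rw [hx, hB1 βx hβx g w₀ hw₀D, hB1 βx hβx h _ (hD₁g w₀ hw₀D g), hg, hB1 βg hβg h w₀ hw₀D,
        hh]
    rw [e1, e2, hB3 βh hβh βg hβg w₀ hw₀D]
  have hvsum : v = v₁ + v₂ := by
    rw [hv₂def]
    abel
  rw [hvsum, map_add, map_add, map_add, map_add, hD₂ v₁ hv₁ g h, key]

theorem frobK_abstract {Q : Type*} [Group Q] [Finite Q] (ρ : Q →* Module.End F V) (σ : MulAut Q)
    (u : Module.End F V) (hσ : ∀ g, u * ρ g = ρ (σ g) * u) (r : ℕ) (hr : r.Prime)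
    (hσr : σ ^ r = 1) (hfpf : ∀ g, σ g = g → g = 1) (hQF : (Nat.card Q : F) ≠ 0)
    (hnil : Group.IsNilpotent Q) (w₀ : V)
    (hrank : ∀ x, ∃ c : F, (∑ i ∈ range r, u ^ i) x = c • w₀) :
    ∀ g h, ρ g * ρ h = ρ h * ρ g := by
  classical
  obtain ⟨c, hc⟩ := hnil.nilpotent
  have hchar : ∀ (i : ℕ) (ϕ : MulAut Q), ∀ z ∈ Subgroup.upperCentralSeries Q i,
      ϕ z ∈ Subgroup.upperCentralSeries Q i := by
    intro i ϕ z hz
    have h1 : z ∈ (Subgroup.upperCentralSeries Q i).comap ϕ.toMonoidHom := by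
      rw [(inferInstance : (Subgroup.upperCentralSeries Q i).Characteristic).fixed ϕ]
      exact hz
    exact h1
  have key : ∀ j, j ≤ c → ∀ v, (∀ z ∈ Subgroup.upperCentralSeries Q (c - j), ρ z v = v) →
      ∀ g h, ρ g (ρ h v) = ρ h (ρ g v) := by
    intro j
    induction j with
    | zero =>
      intro _ v hv g h
      rw [Nat.sub_zero, hc] at hv
      rw [hv h (Subgroup.mem_top h), hv g (Subgroup.mem_top g), hv h (Subgroup.mem_top h)]
    | succ j ih =>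
      intro hj
      have e : c - j = (c - (j + 1)) + 1 := by omega
      have ih' := ih (by omega)
      rw [e] at ih'
      exact lin_step ρ σ u hσ r hr hσr hfpf hQF w₀ hrank
        (Subgroup.upperCentralSeries Q (c - (j + 1))) (Subgroup.upperCentralSeries Q (c - (j + 1) + 1))
        inferInstance inferInstance
        (fun z hz => hchar _ σ⁻¹ z hz)
        (fun z hz => hchar _ σ z hz)
        (fun z hz => hchar _ σ⁻¹ z hz)
        (fun z hz g => Subgroup.mem_upperCentralSeries_succ_iff.mp hz g)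
        ih'
  intro g h
  apply LinearMap.ext
  intro v
  have := key c (le_refl c) v (by
    intro z hz
    rw [Nat.sub_self, Subgroup.upperCentralSeries_zero, Subgroup.mem_bot] at hz
    rw [hz, map_one, Module.End.one_apply]) g h
  exact this

end FrobK

theorem frobK_group_aux (p : ℕ) [Fact p.Prime] {A : Type*} [CommGroup A]
    [Module (ZMod p) (Additive A)] {Q : Type*} [Group Q] [Finite Q]
    (φ : Q →* MulAut A) (σ : MulAut Q) (τ : MulAut A) (hστ : ∀ g, τ * φ g = φ (σ g) * τ)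
    (r : ℕ) (hr : r.Prime) (hσr : σ ^ r = 1) (hτr : τ ^ r = 1)
    (hfpf : ∀ g, σ g = g → g = 1) (hQp : ¬ p ∣ Nat.card Q) (hnil : Group.IsNilpotent Q)
    (w₀ : A) (hrank : ∀ a, τ a = a → ∃ k : ℕ, a = w₀ ^ k) :
    ∀ g h, φ g * φ h = φ h * φ g := by
  classical
  have key := frobK_abstract (F := ZMod p) (V := Additive A) ((autToLin p A).comp φ) σ
    (autToLin p A τ)
    (by
      intro g
      simp only [MonoidHom.comp_apply]
      rw [← map_mul, ← map_mul, hστ g])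
    r hr hσr hfpf
    (by
      intro h
      exact hQp ((ZMod.natCast_eq_zero_iff _ _).mp h))
    hnil (Additive.ofMul w₀)
    (by
      intro x
      have h1 := mul_geom_sum (autToLin p A τ) r
      rw [← map_pow, hτr, map_one, sub_self] at h1
      have h2 := congrArg (fun f : Module.End (ZMod p) (Additive A) => f x) h1
      simp only [sub_mul, one_mul, LinearMap.sub_apply, Module.End.mul_apply,
        LinearMap.zero_apply] at h2
      have h3 := sub_eq_zero.mp h2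
      obtain ⟨y, hy⟩ : ∃ y, y = (∑ i ∈ range r, autToLin p A τ ^ i) x := ⟨_, rfl⟩
      rw [← hy] at h3 ⊢
      have h4 : τ (Additive.toMul y) = Additive.toMul y := Additive.ofMul.injective h3
      obtain ⟨k, hk⟩ := hrank _ h4
      refine ⟨(k : ZMod p), ?_⟩
      rw [Nat.cast_smul_eq_nsmul, ← ofMul_pow, ← hk]
      rfl)
  intro g h
  apply autToLin_injective p A
  rw [map_mul, map_mul]
  exact key g h

theorem frobK_group (p : ℕ) [Fact p.Prime] {A : Type*} [Group A]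
    (hAc : ∀ a b : A, a * b = b * a) (hA : ∀ a : A, a ^ p = 1)
    {Q : Type*} [Group Q] [Finite Q]
    (φ : Q →* MulAut A) (σ : MulAut Q) (τ : MulAut A) (hστ : ∀ g, τ * φ g = φ (σ g) * τ)
    (r : ℕ) (hr : r.Prime) (hσr : σ ^ r = 1) (hτr : τ ^ r = 1)
    (hfpf : ∀ g, σ g = g → g = 1) (hQp : ¬ p ∣ Nat.card Q) (hnil : Group.IsNilpotent Q)
    (w₀ : A) (hrank : ∀ a, τ a = a → ∃ k : ℕ, a = w₀ ^ k) :
    ∀ g h, φ g * φ h = φ h * φ g :=
  @frobK_group_aux p _ A (CommGroup.mk hAc)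
    (@AddCommGroup.zmodModule p (Additive A) (@Additive.addCommGroup A (CommGroup.mk hAc))
      (fun v => congrArg Additive.ofMul (hA (Additive.toMul v))))
    Q _ _ φ σ τ hστ r hr hσr hτr hfpf hQp hnil w₀ hrank

end Cfsg.Agent.Lib.Helper20.HS
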