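import Mathlib
import Cfsg.Agent.Lib.Helper20.HSBridge
import Cfsg.Agent.Lib.Helper20.HSFrobK

namespace Cfsg.Agent.Lib.Helper20.HS

open Finset Module

section CycUpper

variable {K : Type*} [Field K] {W : Type*} [AddCommGroup W] [Module K W]
variable {Q : Type*} [Group Q] [Fintype Q]

lemma finrank_cent_le_gen [FiniteDimensional K W] (ρ : Q →* Module.End K W)
    (hQ : (Fintype.card Q : K) ≠ 0) (Z : Subgroup Q)
    (θ : Q → K) (hθ : ∀ z ∈ Z, ρ z = θ z • (1 : Module.End K W))
    (hcomm : ∀ g h : Q, g * h * g⁻¹ * h⁻¹ ∈ Z)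
    (hnd : ∀ g, g ∉ Z → ∃ h, θ (h * g * h⁻¹ * g⁻¹) ≠ 1)
    (σ : MulAut Q) (u : Module.End K W) (hσ : ∀ g, u * ρ g = ρ (σ g) * u)
    (hσZ : ∀ z, σ z ∈ Z ↔ z ∈ Z)
    (r : ℕ) (hr : 0 < r) (hfree : ∀ k, ¬ r ∣ k → ∀ t, (σ ^ k) t * t⁻¹ ∈ Z → t ∈ Z)
    (hσr : σ ^ r = 1) (hur : u ^ r = 1) :
    ∃ n : ℕ, n * r = Z.index - 1 ∧
      finrank K (cent u) ≤ (n + 1) * finrank K (commutant ρ) := by
  classical
  let s : Setoid Q := clsSetoid Z σ hσZ r hr hσr
  have : Fintype (Quotient s) := Fintype.ofFinite _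
  have : Fintype (Q ⧸ Z) := Fintype.ofFinite _
  have hsr : ∀ g g' : Q, s.r g g' ↔ ∃ i : ℕ, ∃ z ∈ Z, g' = (σ ^ i) g * z := fun _ _ => Iff.rfl
  let Ψ : cent u →ₗ[K] (Quotient s → commutant ρ) :=
    { toFun := fun b c => ⟨avg ρ (ρ (Quotient.out c)⁻¹ * (b : Module.End K W)), avg_mem ρ _⟩
      map_add' := by
        intro b b'
        funext c
        apply Subtype.ext
        simp [mul_add, avg_add]
      map_smul' := by
        intro a b
        funext c
        apply Subtype.ext
        simp [avg_smul] }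
  have hZK : (Nat.card Z : K) ≠ 0 := by
    intro h0
    apply hQ
    rw [← Nat.card_eq_fintype_card, ← Subgroup.card_mul_index Z, Nat.cast_mul, h0, zero_mul]
  have hinj : Function.Injective Ψ := by
    rw [injective_iff_map_eq_zero]
    intro b hb
    have hall : ∀ g : Q, avg ρ (ρ g⁻¹ * (b : Module.End K W)) = 0 := by
      intro g
      have h1 : avg ρ (ρ (Quotient.out (Quotient.mk s g))⁻¹ * (b : Module.End K W)) = 0 := by
        have := congrFun hb (Quotient.mk s g)
        exact congrArg Subtype.val this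
      obtain ⟨i, z, hz, hg⟩ := (hsr _ _).mp (Quotient.mk_out (s := s) g)
      rw [hg]
      apply avg_zero_mul ρ Z θ hθ _ _ _ hz
      exact avg_zero_sigma_pow ρ σ u hσ r hr hur _ b.2 _ h1 i
    have h2 := fourier ρ hQ Z θ hθ hcomm hnd (b : Module.End K W)
    simp only [hall, mul_zero, Finset.sum_const_zero] at h2
    apply Subtype.ext
    rcases smul_eq_zero.mp h2.symm with h3 | h3
    · exact absurd h3 hZK
    · exact h3
  have h3 := LinearMap.finrank_le_finrank_of_injective hinj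
  rw [Module.finrank_pi_fintype, Finset.sum_const, Finset.card_univ, smul_eq_mul] at h3
  have hc1 : ∀ g : Q, Quotient.mk s g = Quotient.mk s 1 ↔ g ∈ Z := by
    intro g
    constructor
    · intro h
      obtain ⟨i, z, hz, h1⟩ := (hsr _ _).mp (Quotient.exact h)
      have : (σ ^ i) g = z⁻¹ := by
        rw [eq_inv_iff_mul_eq_one, ← h1]
      have h4 : (σ ^ i) g ∈ Z := by
        rw [this]
        exact Z.inv_mem hz
      exact (sigma_pow_mem_iff Z σ hσZ i g).mp h4
    · intro h
      apply Quotient.sound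
      exact (hsr _ _).mpr ⟨0, g⁻¹, Z.inv_mem h, by simp⟩
  have hcount : (Fintype.card (Quotient s) - 1) * r = Fintype.card (Q ⧸ Z) - 1 := by
    have e1 : ((Finset.univ.erase (Quotient.mk s 1)) ×ˢ (Finset.univ : Finset (Fin r))).card =
        (Fintype.card (Quotient s) - 1) * r := by
      rw [Finset.card_product, Finset.card_erase_of_mem (Finset.mem_univ _), Finset.card_univ,
        Finset.card_univ, Fintype.card_fin]
    have e2 : (Finset.univ.erase ((QuotientGroup.mk 1 : Q ⧸ Z))).card = Fintype.card (Q ⧸ Z) - 1 := by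
      rw [Finset.card_erase_of_mem (Finset.mem_univ _), Finset.card_univ]
    rw [← e1, ← e2]
    apply Finset.card_bij (fun p _ => (QuotientGroup.mk ((σ ^ (p.2 : ℕ)) (Quotient.out p.1)) : Q ⧸ Z))
    · rintro ⟨c, i⟩ hp
      simp only [Finset.mem_product, Finset.mem_erase, Finset.mem_univ, and_true, ne_eq] at hp
      simp only [Finset.mem_erase, Finset.mem_univ, and_true, ne_eq]
      rw [mk_eq_mk_one_iff, sigma_pow_mem_iff Z σ hσZ, ← hc1, Quotient.out_eq]
      exact hp
    · rintro ⟨c, i⟩ hp ⟨c', j⟩ hp' heq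
      simp only [Finset.mem_product, Finset.mem_erase, Finset.mem_univ, and_true, ne_eq] at hp hp'
      have h5 : ((σ ^ (i : ℕ)) (Quotient.out c))⁻¹ * (σ ^ (j : ℕ)) (Quotient.out c') ∈ Z :=
        (QuotientGroup.eq (s := Z)).mp heq
      have hcc : c = c' := by
        rw [← Quotient.out_eq c, ← Quotient.out_eq c']
        apply Quotient.sound
        refine (hsr _ _).mpr ⟨(r - 1) * j + i, (σ ^ ((r - 1) * j)) _, (sigma_pow_mem_iff Z σ hσZ _ _).mpr h5, ?_⟩
        rw [map_mul, map_inv, pow_add, MulAut.mul_apply, mul_inv_cancel_left,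
          ← MulAut.mul_apply, ← pow_add]
        rw [pred_mul_add r j hr, pow_mul, hσr, one_pow, MulAut.one_apply]
      subst hcc
      have hij : (i : ℕ) = j := by
        by_contra hne
        apply hp
        rw [← Quotient.out_eq c, hc1]
        apply hfree ((r - 1) * i + j)
        · intro hdvd
          apply hne
          have h6 : (r - 1) * (i : ℕ) + j + i = r * i + j := by
            rw [← pred_mul_add r i hr]
            ring
          have h7 : ((r - 1) * (i : ℕ) + j + i) % r = (i : ℕ) % r := by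
            rw [Nat.add_mod, Nat.mod_eq_zero_of_dvd hdvd, zero_add, Nat.mod_mod]
          rw [h6, Nat.mul_add_mod, Nat.mod_eq_of_lt i.2, Nat.mod_eq_of_lt j.2] at h7
          exact h7.symm
        · have e : (σ ^ ((r - 1) * (i : ℕ) + j)) (Quotient.out c) * (Quotient.out c)⁻¹ =
              (Quotient.out c) * (σ ^ ((r - 1) * (i : ℕ)))
                (((σ ^ (i : ℕ)) (Quotient.out c))⁻¹ * (σ ^ (j : ℕ)) (Quotient.out c)) *
                (Quotient.out c)⁻¹ := by
            rw [map_mul, map_inv, ← MulAut.mul_apply, ← pow_add, ← MulAut.mul_apply, ← pow_add]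
            rw [pred_mul_add r i hr, pow_mul, hσr, one_pow, MulAut.one_apply,
              mul_inv_cancel_left]
          rw [e]
          exact conj_mem_of_comm Z hcomm _ _ ((sigma_pow_mem_iff Z σ hσZ _ _).mpr h5)
      congr 1
      exact Fin.ext hij
    · intro d hd
      simp only [Finset.mem_erase, Finset.mem_univ, and_true, ne_eq] at hd
      obtain ⟨g, rfl⟩ := QuotientGroup.mk_surjective d
      have hgZ : g ∉ Z := by
        intro h
        apply hd
        exact (mk_eq_mk_one_iff Z g).mpr h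
      obtain ⟨i, z, hz, hg⟩ := (hsr _ _).mp (Quotient.mk_out (s := s) g)
      refine ⟨(Quotient.mk s g, ⟨i % r, Nat.mod_lt _ hr⟩), ?_, ?_⟩
      · simp only [Finset.mem_product, Finset.mem_erase, Finset.mem_univ, and_true, ne_eq]
        rw [hc1]
        exact hgZ
      · simp only
        rw [← pow_eq_pow_mod i hσr]
        have : (σ ^ i) (Quotient.out (Quotient.mk s g)) = g * z⁻¹ :=
          eq_mul_inv_of_mul_eq hg.symm
        rw [this]
        exact QuotientGroup.mk_mul_of_mem g (Z.inv_mem hz)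
  refine ⟨Fintype.card (Quotient s) - 1, ?_, ?_⟩
  · rw [hcount, Subgroup.index_eq_card, Nat.card_eq_fintype_card]
  · have hpos : 0 < Fintype.card (Quotient s) := Fintype.card_pos_iff.mpr ⟨Quotient.mk s 1⟩
    rw [Nat.sub_add_cancel hpos]
    exact h3

end CycUpper

section CycLower

variable {K : Type*} [Field K] {W : Type*} [AddCommGroup W] [Module K W]

lemma eig_decomp [FiniteDimensional K W] (u : Module.End K W) (r : ℕ) (hr : 0 < r) (ζ : K)
    (hζ : IsPrimitiveRoot ζ r) (hrK : (r : K) ≠ 0) (hur : u ^ r = 1) :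
    ∃ m : Fin r → ℕ, ∑ i, m i = finrank K W ∧ ∑ i, m i * m i ≤ finrank K (cent u) := by
  classical
  have hζ0 : ζ ≠ 0 := hζ.ne_zero hr.ne'
  set η : K := ζ⁻¹ with hηdef
  have hζη : ζ * η = 1 := mul_inv_cancel₀ hζ0
  have hη : IsPrimitiveRoot η r := hζ.inv
  have hηr : η ^ r = 1 := hη.pow_eq_one
  let Wi : Fin r → Submodule K W := fun i => LinearMap.ker (u - ζ ^ (i : ℕ) • (1 : Module.End K W))
  have hWi : ∀ (i : Fin r) (w : W), w ∈ Wi i ↔ u w = ζ ^ (i : ℕ) • w := by
    intro i w
    simp only [Wi, LinearMap.mem_ker, LinearMap.sub_apply, LinearMap.smul_apply,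
      Module.End.one_apply, sub_eq_zero]
  have hPmem : ∀ (i : Fin r) (w : W), proj u r η i w ∈ Wi i := by
    intro i w
    rw [hWi]
    have := congrArg (fun f : Module.End K W => f w) (mul_proj u r ζ η hζη hηr hur i)
    simpa using this
  let P : ∀ i : Fin r, W →ₗ[K] Wi i := fun i => (proj u r η i).codRestrict (Wi i) (hPmem i)
  have hP : ∀ (i l : Fin r) (w : Wi i), P l (w : W) = if h : i = l then h ▸ w else 0 := by
    intro i l w
    apply Subtype.ext
    have h1 := proj_apply_eig u r ζ η hζ hζη hrK i l i.2 l.2 (w : W) ((hWi i _).mp w.2)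
    change proj u r η l (w : W) = _
    rw [h1]
    by_cases h : i = l
    · subst h
      simp
    · have h' : (i : ℕ) ≠ l := fun e => h (Fin.ext e)
      simp [h, h']
  have hsurj : Function.Surjective
      (∑ i : Fin r, (Wi i).subtype ∘ₗ LinearMap.proj i : (∀ i, Wi i) →ₗ[K] W) := by
    intro w
    refine ⟨fun i => P i w, ?_⟩
    rw [LinearMap.sum_apply]
    have h1 := congrArg (fun f : Module.End K W => f w) (sum_proj u r hr η hη hrK)
    simp only [LinearMap.sum_apply, Module.End.one_apply] at h1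
    have h2 : ∀ i : Fin r, ((Wi i).subtype ∘ₗ LinearMap.proj i) (fun i => P i w) =
        proj u r η i w := fun i => rfl
    rw [Finset.sum_congr rfl (fun i _ => h2 i),
      Fin.sum_univ_eq_sum_range (fun i => proj u r η i w) r]
    exact h1
  have hd : finrank K W ≤ ∑ i : Fin r, finrank K (Wi i) := by
    have := LinearMap.finrank_le_finrank_of_surjective hsurj
    rwa [Module.finrank_pi_fintype] at this
  let Θ : (∀ i : Fin r, Module.End K (Wi i)) →ₗ[K] Module.End K W :=
    { toFun := fun b => ∑ i : Fin r, (Wi i).subtype ∘ₗ (b i) ∘ₗ (P i)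
      map_add' := by
        intro b b'
        rw [← Finset.sum_add_distrib]
        apply Finset.sum_congr rfl
        intro i _
        simp [LinearMap.add_comp, LinearMap.comp_add]
      map_smul' := by
        intro a b
        rw [Finset.smul_sum]
        apply Finset.sum_congr rfl
        intro i _
        simp [LinearMap.smul_comp, LinearMap.comp_smul] }
  have hΘ : ∀ b, Θ b = ∑ i : Fin r, (Wi i).subtype ∘ₗ (b i) ∘ₗ (P i) := fun _ => rfl
  have hΘmem : ∀ b, Θ b ∈ cent u := by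
    intro b
    rw [mem_cent, hΘ, Finset.mul_sum, Finset.sum_mul]
    apply Finset.sum_congr rfl
    intro i _
    apply LinearMap.ext
    intro w
    simp only [Module.End.mul_apply, LinearMap.comp_apply, Submodule.subtype_apply]
    rw [(hWi i _).mp (b i (P i w)).2]
    have h1 : P i (u w) = ζ ^ (i : ℕ) • P i w := by
      apply Subtype.ext
      change proj u r η i (u w) = ζ ^ (i : ℕ) • proj u r η i w
      have := congrArg (fun f : Module.End K W => f w) (proj_mul u r ζ η hζη hηr hur i)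
      simpa using this
    rw [h1, map_smul]
    rfl
  have hΘinj : Function.Injective (Θ.codRestrict (cent u) hΘmem) := by
    rw [injective_iff_map_eq_zero]
    intro b hb
    have hb' : Θ b = 0 := congrArg Subtype.val hb
    funext i
    apply LinearMap.ext
    intro w
    apply Subtype.ext
    have h1 := congrArg (fun f : Module.End K W => f (w : W)) hb'
    simp only [hΘ, LinearMap.sum_apply, LinearMap.comp_apply, Submodule.subtype_apply,
      LinearMap.zero_apply] at h1
    rw [Finset.sum_eq_single i] at h1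
    · rw [hP i i w] at h1
      simpa using h1
    · intro l _ hl
      rw [hP i l w, dif_neg (Ne.symm hl)]
      simp
    · intro h
      exact absurd (Finset.mem_univ _) h
  have he : ∑ i : Fin r, finrank K (Wi i) * finrank K (Wi i) ≤ finrank K (cent u) := by
    have := LinearMap.finrank_le_finrank_of_injective hΘinj
    rw [Module.finrank_pi_fintype] at this
    simpa [Module.finrank_linearMap] using this
  have hinj2 : Function.Injective
      (∑ i : Fin r, (Wi i).subtype ∘ₗ LinearMap.proj i : (∀ i, Wi i) →ₗ[K] W) := by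
    rw [injective_iff_map_eq_zero]
    intro b hb
    funext l
    have h2 : P l ((∑ i : Fin r, (Wi i).subtype ∘ₗ LinearMap.proj i : (∀ i, Wi i) →ₗ[K] W) b)
        = b l := by
      rw [LinearMap.sum_apply, map_sum, Finset.sum_eq_single l]
      · simp only [LinearMap.comp_apply, LinearMap.proj_apply, Submodule.subtype_apply]
        rw [hP l l (b l)]
        simp
      · intro i _ hi
        simp only [LinearMap.comp_apply, LinearMap.proj_apply, Submodule.subtype_apply]
        rw [hP i l (b i), dif_neg hi]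
      · intro h
        exact absurd (Finset.mem_univ _) h
    rw [hb, map_zero] at h2
    exact h2.symm
  have hd2 : ∑ i : Fin r, finrank K (Wi i) ≤ finrank K W := by
    have := LinearMap.finrank_le_finrank_of_injective hinj2
    rwa [Module.finrank_pi_fintype] at this
  exact ⟨fun i => finrank K (Wi i), le_antisymm hd2 hd, he⟩

end CycLower


theorem cyc_arith (h d n : ℕ) (hh : 0 < h) (m : Fin h → ℕ) (hsum : ∑ i, m i = d)
    (hsq : ∑ i, m i * m i ≤ n + 1) (hn : n * h = d * d - 1) (hd : 0 < d) :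
    h ∣ d - 1 ∨ h ∣ d + 1 := by
  have hdd : 1 ≤ d * d := Nat.mul_pos hd hd
  have hn' : n * h + 1 = d * d := by
    rw [hn]
    exact Nat.sub_add_cancel hdd
  obtain ⟨a, ha⟩ : ∃ a, a = d / h := ⟨_, rfl⟩
  obtain ⟨b, hb⟩ : ∃ b, b = d % h := ⟨_, rfl⟩
  have hdab : d = h * a + b := by
    rw [ha, hb]
    exact (Nat.div_add_mod d h).symm
  have hbh : b < h := by
    rw [hb]
    exact Nat.mod_lt d hh
  have key : h * b + 1 ≤ h + b * b := by
    have h1 : ∀ i : Fin h, ((m i : ℤ) - a) ≤ ((m i : ℤ) - a) ^ 2 := fun i => Int.le_self_sq _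
    have h2 : ∑ i : Fin h, ((m i : ℤ) - a) ≤ ∑ i : Fin h, ((m i : ℤ) - a) ^ 2 :=
      Finset.sum_le_sum (fun i _ => h1 i)
    have hs1 : ∑ i : Fin h, (m i : ℤ) = d := by
      rw [← hsum]
      push_cast
      rfl
    have hs2 : ∑ i : Fin h, (m i : ℤ) * (m i : ℤ) ≤ n + 1 := by
      have := hsq
      have h3 : ((∑ i : Fin h, m i * m i : ℕ) : ℤ) ≤ ((n + 1 : ℕ) : ℤ) := Int.ofNat_le.mpr this
      push_cast at h3
      exact h3
    have e1 : ∑ i : Fin h, ((m i : ℤ) - a) = (d : ℤ) - h * a := by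
      rw [Finset.sum_sub_distrib, hs1, Finset.sum_const, Finset.card_univ, Fintype.card_fin]
      simp
    have e2 : ∑ i : Fin h, ((m i : ℤ) - a) ^ 2
        = ∑ i : Fin h, (m i : ℤ) * (m i : ℤ) - 2 * a * d + h * (a : ℤ) ^ 2 := by
      have e3 : ∀ i : Fin h, ((m i : ℤ) - a) ^ 2
          = (m i : ℤ) * (m i : ℤ) - 2 * a * (m i : ℤ) + (a : ℤ) ^ 2 := by
        intro i
        ring
      rw [Finset.sum_congr rfl (fun i _ => e3 i), Finset.sum_add_distrib, Finset.sum_sub_distrib,
        ← Finset.mul_sum, hs1, Finset.sum_const, Finset.card_univ, Fintype.card_fin]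
      simp
    rw [e1, e2] at h2
    have hn'' : (n : ℤ) * h + 1 = (d : ℤ) * d := by exact_mod_cast hn'
    have hd' : (d : ℤ) = h * a + b := by exact_mod_cast hdab
    have hh' : (0 : ℤ) ≤ h := Int.natCast_nonneg h
    have h4 : (d : ℤ) - h * a ≤ (n : ℤ) + 1 - 2 * a * d + h * (a : ℤ) ^ 2 := by linarith
    have h5 : (h : ℤ) * ((d : ℤ) - h * a) ≤ h * ((n : ℤ) + 1 - 2 * a * d + h * (a : ℤ) ^ 2) :=
      mul_le_mul_of_nonneg_left h4 hh'
    have h6 : (h : ℤ) * b + 1 ≤ h + (b : ℤ) * b := by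
      have e4 : (d : ℤ) - h * a = b := by linarith
      rw [e4] at h5
      have e5 : (h : ℤ) * ((n : ℤ) + 1 - 2 * a * d + h * (a : ℤ) ^ 2)
          = ((n : ℤ) * h + 1) + h - 1 - 2 * a * d * h + (h * a) ^ 2 := by ring
      rw [e5, hn'', hd'] at h5
      nlinarith
    exact_mod_cast h6
  rcases Nat.lt_or_ge b 2 with hb2 | hb2
  · interval_cases b
    · have hh1 : h ∣ 1 := by
        have h7 : h ∣ n * h + 1 := by
          rw [hn', hdab, add_zero]
          exact Dvd.intro _ (by ring : h * (a * (h * a)) = h * a * (h * a))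
        exact (Nat.dvd_add_right (dvd_mul_left h n)).mp h7
      left
      rw [Nat.dvd_one.mp hh1]
      exact one_dvd _
    · left
      rw [hdab, Nat.add_sub_cancel]
      exact dvd_mul_right h a
  · right
    have hbh1 : b + 1 = h := by
      by_contra hne
      have h8 : b + 2 ≤ h := by omega
      nlinarith
    rw [hdab, add_assoc, hbh1]
    exact Dvd.intro (a + 1) (by ring)

section CycK

variable {K : Type*} [Field K] [IsAlgClosed K] {W : Type*} [AddCommGroup W] [Module K W]
  [FiniteDimensional K W]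
variable {Q : Type*} [Group Q] [Fintype Q]

theorem cyc_K (ρ : Q →* Module.End K W) (Z : Subgroup Q)
    (hZc : ∀ z ∈ Z, ∀ g : Q, z * g = g * z)
    (hcomm : ∀ g h : Q, g * h * g⁻¹ * h⁻¹ ∈ Z)
    (hND : ∀ Z₀ : Subgroup Q, Z₀ ≤ Z → Z₀ ≠ Z → ∀ g, (∀ h, h * g * h⁻¹ * g⁻¹ ∈ Z₀) → g ∈ Z)
    (hfaith : ∃ z ∈ Z, ρ z ≠ 1)
    (σ : MulAut Q) (hσZ : ∀ z ∈ Z, σ z = z)
    (r : ℕ) (hr : 0 < r) (hfree : ∀ i, 0 < i → i < r → ∀ g, (σ ^ i) g * g⁻¹ ∈ Z → g ∈ Z)
    (hrK : (r : K) ≠ 0) (hQK : (Fintype.card Q : K) ≠ 0) (hσr : σ ^ r = 1) :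
    ∃ d : ℕ, 0 < d ∧ Z.index = d * d ∧ (r ∣ d - 1 ∨ r ∣ d + 1) := by
  classical
  let E : Module.End K W := ∑ z : Z, ρ (z : Q)
  have hEdef : E = ∑ z : Z, ρ (z : Q) := rfl
  have hEmul : ∀ z₀ ∈ Z, E * ρ z₀ = E := by
    intro z₀ hz₀
    rw [hEdef, Finset.sum_mul]
    apply Fintype.sum_equiv (Equiv.mulRight (⟨z₀, hz₀⟩ : Z))
    intro z
    simp [map_mul]
  have hEcomm : ∀ b : Module.End K W, (∀ z ∈ Z, b * ρ z = ρ z * b) → b * E = E * b := by
    intro b hb
    rw [hEdef, Finset.mul_sum, Finset.sum_mul]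
    exact Finset.sum_congr rfl (fun z _ => hb z z.2)
  let F : Q → Module.End K W := fun g => ρ g
  have hFz : ∀ i, ∀ z ∈ Z, F i * ρ z = ρ z * F i := by
    intro g z hz
    change ρ g * ρ z = ρ z * ρ g
    rw [← map_mul, ← map_mul, hZc z hz g]
  have hFE : ∀ i, F i * E = E * F i := fun i => hEcomm _ (hFz i)
  have hinv₂ : Inv F (LinearMap.ker E) := by
    intro i w hw
    rw [LinearMap.mem_ker] at hw ⊢
    have := congrArg (fun f : Module.End K W => f w) (hFE i)
    simp only [Module.End.mul_apply] at this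
    rw [← this, hw, map_zero]
  have hne₂ : LinearMap.ker E ≠ ⊥ := by
    obtain ⟨z₀, hz₀, hne⟩ := hfaith
    have : ∃ w, ρ z₀ w ≠ w := by
      by_contra hall
      push Not at hall
      apply hne
      apply LinearMap.ext
      intro w
      simpa using hall w
    obtain ⟨w, hw⟩ := this
    intro hbot
    have hmem : ρ z₀ w - w ∈ LinearMap.ker E := by
      rw [LinearMap.mem_ker, map_sub]
      have := congrArg (fun f : Module.End K W => f w) (hEmul z₀ hz₀)
      simp only [Module.End.mul_apply] at this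
      rw [this, sub_self]
    rw [hbot, Submodule.mem_bot, sub_eq_zero] at hmem
    exact hw hmem
  obtain ⟨W', hW'le, hW'inv, hW'ne, hW'min⟩ := exists_min_inv F (LinearMap.ker E) hinv₂ hne₂
  haveI : Nontrivial W' := Submodule.nontrivial_iff_ne_bot.mpr hW'ne
  have hρinv : ∀ g, ∀ w ∈ W', ρ g w ∈ W' := fun g => hW'inv g
  let ρ' : Q →* Module.End K W' := resRep ρ W' hρinv
  have hirr' := irr_res F W' hW'inv hW'min
  have hsch : ∀ z ∈ Z, ∃ μ : K, ρ' z = μ • (1 : Module.End K W') := by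
    intro z hz
    apply schur (resF F W' hW'inv) hirr'
    intro i
    apply LinearMap.ext
    intro w
    apply Subtype.ext
    exact congrArg (fun f : Module.End K W => f (w : W)) (hFz i z hz)
  let θ : Q → K := fun q => if h : q ∈ Z then Classical.choose (hsch q h) else 0
  have hθ : ∀ z ∈ Z, ρ' z = θ z • (1 : Module.End K W') := by
    intro z hz
    simp only [θ, dif_pos hz]
    exact Classical.choose_spec (hsch z hz)
  have hinj1 : Function.Injective (fun c : K => c • (1 : Module.End K W')) := by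
    intro a b h
    obtain ⟨w, hw⟩ := exists_ne (0 : W')
    have h0 := congrArg (fun f : Module.End K W' => f w) h
    simp only [LinearMap.smul_apply, Module.End.one_apply] at h0
    have h1 : (a - b) • w = 0 := by
      rw [sub_smul]
      exact sub_eq_zero.mpr h0
    rcases smul_eq_zero.mp h1 with h2 | h2
    · exact sub_eq_zero.mp h2
    · exact absurd h2 hw
  have hθmul : ∀ z ∈ Z, ∀ z' ∈ Z, θ (z * z') = θ z * θ z' := by
    intro z hz z' hz'
    apply hinj1
    change θ (z * z') • (1 : Module.End K W') = (θ z * θ z') • (1 : Module.End K W')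
    rw [← hθ _ (Z.mul_mem hz hz'), map_mul, hθ z hz, hθ z' hz', smul_mul_smul_comm, mul_one]
  have hθone : θ 1 = 1 := by
    apply hinj1
    change θ 1 • (1 : Module.End K W') = (1 : K) • (1 : Module.End K W')
    rw [← hθ 1 Z.one_mem, map_one, one_smul]
  have hZK : (Fintype.card Z : K) ≠ 0 := by
    intro h0
    apply hQK
    rw [← Nat.card_eq_fintype_card, ← Subgroup.card_mul_index Z, Nat.cast_mul,
      Nat.card_eq_fintype_card, h0, zero_mul]
  have hθne : ∃ z₁ ∈ Z, θ z₁ ≠ 1 := by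
    by_contra hall
    push Not at hall
    apply hW'ne
    rw [eq_bot_iff]
    intro w hw
    have h1 : E w = 0 := LinearMap.mem_ker.mp (hW'le hw)
    have h2 : E w = (Fintype.card Z : K) • w := by
      rw [hEdef, LinearMap.sum_apply]
      have : ∀ z : Z, ρ (z : Q) w = w := by
        intro z
        have h3 := congrArg (fun f : Module.End K W' => ((f ⟨w, hw⟩ : W') : W)) (hθ z z.2)
        simp only [hall z z.2, one_smul, Module.End.one_apply] at h3
        exact h3
      rw [Finset.sum_congr rfl (fun z _ => this z), Finset.sum_const, Finset.card_univ,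
        Nat.cast_smul_eq_nsmul]
    rw [h2] at h1
    rcases smul_eq_zero.mp h1 with h | h
    · exact absurd h hZK
    · rw [Submodule.mem_bot]
      exact h
  obtain ⟨z₁, hz₁, hz₁ne⟩ := hθne
  let Z₀ : Subgroup Q :=
    { carrier := {z | z ∈ Z ∧ θ z = 1}
      mul_mem' := by
        rintro a b ⟨ha, ha1⟩ ⟨hb, hb1⟩
        exact ⟨Z.mul_mem ha hb, by rw [hθmul a ha b hb, ha1, hb1, one_mul]⟩
      one_mem' := ⟨Z.one_mem, hθone⟩
      inv_mem' := by
        rintro a ⟨ha, ha1⟩
        refine ⟨Z.inv_mem ha, ?_⟩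
        have := hθmul a⁻¹ (Z.inv_mem ha) a ha
        rw [inv_mul_cancel, hθone, ha1, mul_one] at this
        exact this.symm }
  have hnd : ∀ g, g ∉ Z → ∃ h, θ (h * g * h⁻¹ * g⁻¹) ≠ 1 := by
    intro g hg
    by_contra hall
    push Not at hall
    apply hg
    apply hND Z₀ (fun z hz => hz.1) (fun h => ?_) g (fun h => ⟨hcomm h g, hall h⟩)
    have : z₁ ∈ Z₀ := by
      rw [h]
      exact hz₁
    exact hz₁ne this.2
  have hσZ' : ∀ z, σ z ∈ Z ↔ z ∈ Z := by
    intro z
    constructor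
    · intro h
      have h1 := hσZ (σ z) h
      have h2 : σ z = z := σ.injective h1
      rw [← h2]
      exact h
    · intro h
      rw [hσZ z h]
      exact h
  have hirrρ : ∀ U : Submodule K W', (∀ g, ∀ w ∈ U, ρ' g w ∈ U) → U = ⊥ ∨ U = ⊤ := hirr'
  have hM := index_eq_sq ρ' hQK Z θ hθ hcomm hnd hirrρ
  have hd : 0 < finrank K W' := Module.finrank_pos
  by_cases hr1 : r = 1
  · exact ⟨finrank K W', hd, hM, Or.inl (by rw [hr1]; exact one_dvd _)⟩
  have hr2 : 1 < r := by omega
  obtain ⟨u₀, hu₀def⟩ : ∃ u₀ : Module.End K W', u₀ = ∑ g : Q, ρ' (σ g) * ρ' g⁻¹ := ⟨_, rfl⟩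
  have hu₀σ : ∀ x, u₀ * ρ' x = ρ' (σ x) * u₀ := by
    intro x
    rw [hu₀def, Finset.sum_mul, Finset.mul_sum]
    apply Fintype.sum_equiv (Equiv.mulLeft x⁻¹)
    intro g
    simp only [Equiv.coe_mulLeft]
    rw [← map_mul, ← map_mul, ← map_mul, ← map_mul]
    congr 1
    rw [map_mul, map_inv]
    group
  have hu₀ne : u₀ ≠ 0 := by
    intro h0
    have h1 : avg ρ' u₀ = (Nat.card Z : K) • (1 : Module.End K W') := by
      rw [hu₀def, avg_sum]
      have h2 : ∀ g : Q, avg ρ' (ρ' (σ g) * ρ' g⁻¹) = if g ∈ Z then 1 else 0 := by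
        intro g
        rw [← map_mul, avg_rho ρ' hQK Z θ hθ hcomm hnd (σ g * g⁻¹)]
        by_cases hg : g ∈ Z
        · rw [if_pos hg, hσZ g hg, mul_inv_cancel, if_pos Z.one_mem, map_one]
        · rw [if_neg hg, if_neg]
          intro hmem
          apply hg
          apply hfree 1 Nat.one_pos hr2 g
          rw [pow_one]
          exact hmem
      rw [Finset.sum_congr rfl (fun g _ => h2 g), Finset.sum_ite, Finset.sum_const_zero, add_zero,
        Finset.sum_const, ← Nat.cast_smul_eq_nsmul K]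
      congr 2
      rw [Nat.card_eq_fintype_card, Fintype.card_subtype]
    rw [h0, avg_zero] at h1
    obtain ⟨w, hw⟩ := exists_ne (0 : W')
    have h3 := congrArg (fun f : Module.End K W' => f w) h1
    simp only [LinearMap.zero_apply, LinearMap.smul_apply, Module.End.one_apply] at h3
    rcases smul_eq_zero.mp h3.symm with h4 | h4
    · apply hZK
      rw [← Nat.card_eq_fintype_card]
      exact h4
    · exact hw h4
  have hker : LinearMap.ker u₀ = ⊥ := by
    rcases hirrρ (LinearMap.ker u₀) (by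
      intro g w hw
      rw [LinearMap.mem_ker] at hw ⊢
      have h1 := congrArg (fun f : Module.End K W' => f w) (hu₀σ g)
      simp only [Module.End.mul_apply] at h1
      rw [h1, hw, map_zero]) with h | h
    · exact h
    · exact absurd (LinearMap.ker_eq_top.mp h) hu₀ne
  have hu₀inj : Function.Injective u₀ := LinearMap.ker_eq_bot.mp hker
  have hu₀pow : ∀ x, ρ' x * u₀ ^ r = u₀ ^ r * ρ' x := by
    intro x
    have h1 := lin_pow_comm ρ' σ u₀ hu₀σ r x
    rw [hσr, MulAut.one_apply] at h1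
    exact h1.symm
  obtain ⟨μ, hμ⟩ := schur (fun g : Q => (ρ' g : Module.End K W')) hirrρ (u₀ ^ r) hu₀pow
  have hμ0 : μ ≠ 0 := by
    rintro rfl
    rw [zero_smul] at hμ
    obtain ⟨w, hw⟩ := exists_ne (0 : W')
    have h1 : Function.Injective (u₀ ^ r) := by
      rw [Module.End.coe_pow]
      exact hu₀inj.iterate r
    have h2 : (u₀ ^ r) w = (u₀ ^ r) 0 := by
      rw [hμ, map_zero, LinearMap.zero_apply]
    exact hw (h1 h2)
  obtain ⟨ν, hν⟩ := IsAlgClosed.exists_pow_nat_eq μ hr
  have hν0 : ν ≠ 0 := by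
    rintro rfl
    rw [zero_pow hr.ne'] at hν
    exact hμ0 hν.symm
  obtain ⟨u, hudef⟩ : ∃ u : Module.End K W', u = ν⁻¹ • u₀ := ⟨_, rfl⟩
  have hur : u ^ r = 1 := by
    rw [hudef, smul_pow, hμ, smul_smul, inv_pow, hν, inv_mul_cancel₀ hμ0, one_smul]
  have huσ : ∀ g, u * ρ' g = ρ' (σ g) * u := by
    intro g
    rw [hudef, smul_mul_assoc, mul_smul_comm, hu₀σ g]
  have hfree' : ∀ k, ¬ r ∣ k → ∀ t, (σ ^ k) t * t⁻¹ ∈ Z → t ∈ Z := by
    intro k hk t ht
    have h1 : 0 < k % r := by
      rcases Nat.eq_zero_or_pos (k % r) with h | h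
      · exact absurd (Nat.dvd_of_mod_eq_zero h) hk
      · exact h
    apply hfree (k % r) h1 (Nat.mod_lt k hr) t
    rw [← pow_eq_pow_mod k hσr]
    exact ht
  obtain ⟨n, hn, hle⟩ := finrank_cent_le_gen ρ' hQK Z θ hθ hcomm hnd σ u huσ hσZ' r hr hfree' hσr
    hur
  have hκ1 : finrank K (commutant ρ') ≤ 1 := by
    apply finrank_le_one (⟨1, fun g => by rw [mul_one, one_mul]⟩ : commutant ρ')
    intro b
    obtain ⟨μ', hμ'⟩ := schur (fun g : Q => (ρ' g : Module.End K W')) hirrρ b.1 b.2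
    refine ⟨μ', ?_⟩
    apply Subtype.ext
    exact hμ'.symm
  haveI : NeZero ((r : ℕ) : K) := ⟨hrK⟩
  obtain ⟨ζ, hζ⟩ := HasEnoughRootsOfUnity.exists_primitiveRoot K r
  obtain ⟨m, hm1, hm2⟩ := eig_decomp u r hr ζ hζ hrK hur
  have hsq : ∑ i, m i * m i ≤ n + 1 := by
    refine hm2.trans (hle.trans ?_)
    calc (n + 1) * finrank K (commutant ρ') ≤ (n + 1) * 1 := Nat.mul_le_mul_left _ hκ1
      _ = n + 1 := mul_one _
  rw [hM] at hn
  exact ⟨finrank K W', hd, hM, cyc_arith r (finrank K W') n hr m hm1 hsq hn hd⟩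

end CycK

def regRep (K : Type*) [Field K] (Q : Type*) [Group Q] : Q →* Module.End K (Q → K) where
  toFun g := LinearMap.funLeft K K (fun x => g⁻¹ * x)
  map_one' := by
    apply LinearMap.ext
    intro f
    funext x
    simp [LinearMap.funLeft_apply]
  map_mul' := by
    intro a b
    apply LinearMap.ext
    intro f
    funext x
    simp [LinearMap.funLeft_apply, mul_assoc]

theorem regRep_apply (K : Type*) [Field K] (Q : Type*) [Group Q] (g : Q) (f : Q → K) (x : Q) :
    regRep K Q g f x = f (g⁻¹ * x) := rfl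

theorem cyc_group {Q : Type*} [Group Q] [Finite Q] (Z : Subgroup Q)
    (hZc : ∀ z ∈ Z, ∀ g : Q, z * g = g * z)
    (hcomm : ∀ g h : Q, g * h * g⁻¹ * h⁻¹ ∈ Z)
    (hND : ∀ Z₀ : Subgroup Q, Z₀ ≤ Z → Z₀ ≠ Z → ∀ g, (∀ h, h * g * h⁻¹ * g⁻¹ ∈ Z₀) → g ∈ Z)
    (hZne : Z ≠ ⊥)
    (σ : MulAut Q) (hσZ : ∀ z ∈ Z, σ z = z)
    (r : ℕ) (hr : 0 < r) (hfree : ∀ i, 0 < i → i < r → ∀ g, (σ ^ i) g * g⁻¹ ∈ Z → g ∈ Z)
    (hσr : σ ^ r = 1) :
    ∃ d : ℕ, 0 < d ∧ Z.index = d * d ∧ (r ∣ d - 1 ∨ r ∣ d + 1) := by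
  classical
  haveI : Fintype Q := Fintype.ofFinite Q
  obtain ⟨ℓ, hℓ1, hℓ⟩ := Nat.exists_infinite_primes (Nat.card Q * r + 1)
  haveI : Fact ℓ.Prime := ⟨hℓ⟩
  have hQpos : 0 < Nat.card Q := Nat.card_pos
  have hQlt : Nat.card Q < ℓ := by nlinarith
  have hrlt : r < ℓ := by nlinarith
  have hrK : ((r : ℕ) : AlgebraicClosure (ZMod ℓ)) ≠ 0 := by
    rw [Ne, CharP.cast_eq_zero_iff (AlgebraicClosure (ZMod ℓ)) ℓ r]
    intro h
    have := Nat.le_of_dvd hr h
    omega
  have hQK : ((Fintype.card Q : ℕ) : AlgebraicClosure (ZMod ℓ)) ≠ 0 := by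
    rw [Ne, CharP.cast_eq_zero_iff (AlgebraicClosure (ZMod ℓ)) ℓ, ← Nat.card_eq_fintype_card]
    intro h
    have := Nat.le_of_dvd hQpos h
    omega
  refine cyc_K (K := AlgebraicClosure (ZMod ℓ)) (regRep (AlgebraicClosure (ZMod ℓ)) Q) Z hZc
    hcomm hND ?_ σ hσZ r hr hfree hrK hQK hσr
  obtain ⟨z, hz1⟩ := Subgroup.ne_bot_iff_exists_ne_one.mp hZne
  refine ⟨z, z.2, ?_⟩
  intro h
  have h1 := congrFun (congrArg (fun f : Module.End (AlgebraicClosure (ZMod ℓ))
    (Q → AlgebraicClosure (ZMod ℓ)) => f (fun x => if x = 1 then 1 else 0)) h) (z : Q)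
  simp only [regRep_apply, Module.End.one_apply, inv_mul_cancel, if_true] at h1
  have h3 : ((z : Q) = 1) = False := by
    apply eq_false
    intro h2
    exact hz1 (Subtype.ext h2)
  rw [h3, if_false] at h1
  exact one_ne_zero h1

end Cfsg.Agent.Lib.Helper20.HS
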