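import Mathlib
import Cfsg.Agent.Lib.Helper20.HSGroup

namespace Cfsg.Agent.Lib.Helper20.HS

theorem nmh_coe {G : Type*} [Group G] (H : Subgroup G)
    (g : Subgroup.normalizer (H : Set G)) (h : H) :
    ((H.normalizerMonoidHom g h : H) : G) = (g : G) * h * (g : G)⁻¹ := rfl

theorem hs_sub {G : Type*} [Group G] [Finite G] {p r : ℕ} (hp : p.Prime) (hr : r.Prime)
    (hpr : p ≠ r) (x : G) (hxr : x ^ r = 1) (Q V : Subgroup G)
    (hxQ : x ∈ Subgroup.normalizer (Q : Set G)) (hxV : x ∈ Subgroup.normalizer (V : Set G))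
    (hQV : Q ≤ Subgroup.normalizer (V : Set G))
    (hVc : ∀ a ∈ V, ∀ b ∈ V, a * b = b * a) (hVp : ∀ a ∈ V, a ^ p = 1)
    (hQp : ¬ p ∣ Nat.card Q) (Z : Subgroup G) (hZQ : Z ≤ Q)
    (hZc : ∀ z ∈ Z, ∀ g ∈ Q, z * g = g * z)
    (hcomm : ∀ g ∈ Q, ∀ h ∈ Q, g * h * g⁻¹ * h⁻¹ ∈ Z)
    (hND : ∀ Z₀ : Subgroup G, Z₀ ≤ Z → Z₀ ≠ Z → ∀ g ∈ Q,
      (∀ h ∈ Q, h * g * h⁻¹ * g⁻¹ ∈ Z₀) → g ∈ Z)
    (hfaith : ∃ z ∈ Z, ∃ v ∈ V, z * v ≠ v * z)
    (hxZ : ∀ z ∈ Z, x * z = z * x)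
    (hfpf : ∀ g ∈ Q, x * g * x⁻¹ * g⁻¹ ∈ Z → g ∈ Z)
    (hfix : ∀ v ∈ V, x * v = v * x → v = 1) :
    Z.relIndex Q ≤ (r - 1) ^ 2 ∧ r ∣ Z.relIndex Q - 1 ∧ ∃ m : ℕ, Z.relIndex Q = m * m := by
  classical
  haveI : Fact p.Prime := ⟨hp⟩
  let φ : ↥Q →* MulAut ↥V := V.normalizerMonoidHom.comp (Subgroup.inclusion hQV)
  let σ : MulAut ↥Q := Q.normalizerMonoidHom ⟨x, hxQ⟩
  let τ : MulAut ↥V := V.normalizerMonoidHom ⟨x, hxV⟩
  have hφ : ∀ (g : ↥Q) (v : ↥V), ((φ g v : ↥V) : G) = (g : G) * v * (g : G)⁻¹ := fun g v => rfl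
  have hσ : ∀ (g : ↥Q), ((σ g : ↥Q) : G) = x * g * x⁻¹ := fun g => rfl
  have hτ : ∀ (v : ↥V), ((τ v : ↥V) : G) = x * v * x⁻¹ := fun v => rfl
  have key := hs_group p (A := ↥V) (Q := ↥Q)
    (fun a b => Subtype.ext (hVc a a.2 b b.2))
    (fun a => Subtype.ext (by simpa using hVp a a.2))
    φ (Z.subgroupOf Q)
    (fun z hz g => Subtype.ext (hZc z hz g g.2))
    (fun g h => by
      rw [Subgroup.mem_subgroupOf]
      simpa using hcomm g g.2 h h.2)
    (by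
      intro Z₀ hle hne g hg
      rw [Subgroup.mem_subgroupOf]
      refine hND (Z₀.map Q.subtype) ?_ ?_ g g.2 ?_
      · rintro _ ⟨y, hy, rfl⟩
        exact Subgroup.mem_subgroupOf.mp (hle hy)
      · intro h
        apply hne
        ext y
        rw [Subgroup.mem_subgroupOf, ← h]
        constructor
        · intro hy
          exact ⟨y, hy, rfl⟩
        · rintro ⟨y', hy', hyy⟩
          have : y' = y := Subtype.ext hyy
          rwa [← this]
      · intro h hh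
        refine ⟨⟨h, hh⟩ * g * (⟨h, hh⟩)⁻¹ * g⁻¹, hg ⟨h, hh⟩, ?_⟩
        simp)
    (by
      obtain ⟨z, hz, v, hv, hne⟩ := hfaith
      refine ⟨⟨z, hZQ hz⟩, Subgroup.mem_subgroupOf.mpr hz, ?_⟩
      intro h
      apply hne
      have h1 := hφ ⟨z, hZQ hz⟩ ⟨v, hv⟩
      rw [h] at h1
      simp only [MulAut.one_apply] at h1
      calc z * v = z * v * z⁻¹ * z := by group
        _ = v * z := by rw [← h1])
    σ τ
    (by
      intro g
      ext v
      simp only [MulAut.mul_apply]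
      rw [hτ, hφ, hφ, hσ, hτ]
      group)
    (by
      intro z hz
      apply Subtype.ext
      rw [hσ, hxZ z (Subgroup.mem_subgroupOf.mp hz)]
      group)
    (by
      intro g hg
      rw [Subgroup.mem_subgroupOf] at hg ⊢
      apply hfpf g g.2
      simpa [hσ] using hg)
    r hr hpr.symm hQp
    (by
      have h1 : σ ^ r = Q.normalizerMonoidHom (⟨x, hxQ⟩ ^ r) := (map_pow _ _ _).symm
      rw [h1]
      have h2 : (⟨x, hxQ⟩ : Subgroup.normalizer (Q : Set G)) ^ r = 1 := Subtype.ext (by simpa using hxr)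
      rw [h2, map_one])
    (by
      have h1 : τ ^ r = V.normalizerMonoidHom (⟨x, hxV⟩ ^ r) := (map_pow _ _ _).symm
      rw [h1]
      have h2 : (⟨x, hxV⟩ : Subgroup.normalizer (V : Set G)) ^ r = 1 := Subtype.ext (by simpa using hxr)
      rw [h2, map_one])
    (by
      intro a ha
      apply Subtype.ext
      apply hfix a a.2
      have h1 := hτ a
      rw [ha] at h1
      calc x * a = x * a * x⁻¹ * x := by group
        _ = a * x := by rw [← h1])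
  exact key

end Cfsg.Agent.Lib.Helper20.HS
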