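import Mathlib
import Cfsg.Prelude.Def_OddOrderLocal
import Cfsg.Agent.S0059
import Cfsg.Agent.Lib.Lead.Hall
import Cfsg.Agent.Lib.Lead.Cores
import Cfsg.Agent.Lib.Helper10.Coprime
import Cfsg.Agent.Lib.Helper19.RelIndex
import Cfsg.Agent.Lib.Helper9.Cores
import Cfsg.Agent.Lib.Helper9.Coprime

set_option autoImplicit false

namespace Cfsg.Agent.Lib.Helper20.InvHall

open Pointwise

universe u

theorem exists_pi_part (π : Set ℕ) : ∀ N : ℕ, 0 < N → ∃ m n : ℕ, N = m * n ∧ m.Coprime n ∧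
    (∀ p : ℕ, p.Prime → p ∣ m → p ∈ π) ∧ (∀ p : ℕ, p.Prime → p ∣ n → p ∉ π) := by
  intro N
  induction N using Nat.strong_induction_on with
  | _ N ih =>
    intro hN
    by_cases h1 : N = 1
    · refine ⟨1, 1, by omega, Nat.coprime_one_left 1, ?_, ?_⟩
      · intro p hp hd; exact absurd (Nat.dvd_one.1 hd) hp.one_lt.ne'
      · intro p hp hd; exact absurd (Nat.dvd_one.1 hd) hp.one_lt.ne'
    · obtain ⟨p, hp, k, rfl⟩ := Nat.exists_prime_and_dvd h1
      have hk0 : 0 < k := Nat.pos_of_ne_zero (by rintro rfl; simp at hN)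
      have hklt : k < p * k := by nlinarith [hp.one_lt]
      obtain ⟨m, n, rfl, hmn, hm, hn⟩ := ih k hklt hk0
      by_cases hpπ : p ∈ π
      · refine ⟨p * m, n, by ring, ?_, ?_, hn⟩
        · apply Nat.Coprime.mul_left _ hmn
          rw [Nat.Prime.coprime_iff_not_dvd hp]
          intro h; exact hn p hp h hpπ
        · intro q hq hqd
          rcases (Nat.Prime.dvd_mul hq).1 hqd with h | h
          · rw [(Nat.prime_dvd_prime_iff_eq hq hp).1 h]; exact hpπ
          · exact hm q hq h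
      · refine ⟨m, p * n, by ring, ?_, hm, ?_⟩
        · apply Nat.Coprime.mul_right _ hmn
          rw [Nat.coprime_comm, Nat.Prime.coprime_iff_not_dvd hp]
          intro h; exact hpπ (hm p hp h)
        · intro q hq hqd
          rcases (Nat.Prime.dvd_mul hq).1 hqd with h | h
          · rw [(Nat.prime_dvd_prime_iff_eq hq hp).1 h]; exact hpπ
          · exact hn q hq h

theorem hall_iff {X : Type*} [Group X] [Finite X] (π : Set ℕ) (G : Subgroup X) (m n : ℕ)
    (hG : Nat.card G = m * n)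
    (hm : ∀ p : ℕ, p.Prime → p ∣ m → p ∈ π) (hn : ∀ p : ℕ, p.Prime → p ∣ n → p ∉ π)
    (H : Subgroup X) :
    Cfsg.IsPiHallOf π H G ↔ H ≤ G ∧ Nat.card H = m := by
  have hm0 : 0 < m := by
    rcases Nat.eq_zero_or_pos m with h | h
    · rw [h, zero_mul] at hG
      exact absurd hG Nat.card_pos.ne'
    · exact h
  constructor
  · rintro ⟨hle, h1, h2⟩
    refine ⟨hle, ?_⟩
    have hcard : Nat.card H * H.relIndex G = m * n := by
      rw [← hG]; exact Cfsg.Agent.Lib.Lead.Cores.card_mul_relIndex_of_le hle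
    have hc1 : m.Coprime (H.relIndex G) :=
      Nat.coprime_of_dvd (fun k hk hkm hkr => h2 k hk (hm k hk hkm) hkr)
    have hc2 : (Nat.card H).Coprime n :=
      Nat.coprime_of_dvd (fun k hk hkH hkn => hn k hk hkn (h1 k hk hkH))
    have hd1 : m ∣ Nat.card H := hc1.dvd_of_dvd_mul_right (hcard ▸ Dvd.intro _ rfl)
    have hd2 : Nat.card H ∣ m := hc2.dvd_of_dvd_mul_right (hcard ▸ Dvd.intro _ rfl)
    exact Nat.dvd_antisymm hd2 hd1
  · rintro ⟨hle, hc⟩
    have hcard : Nat.card H * H.relIndex G = m * n := by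
      rw [← hG]; exact Cfsg.Agent.Lib.Lead.Cores.card_mul_relIndex_of_le hle
    rw [hc] at hcard
    have hr : H.relIndex G = n := Nat.eq_of_mul_eq_mul_left hm0 hcard
    refine ⟨hle, fun p hp hd => hm p hp (hc ▸ hd), fun p hp hpπ hd => ?_⟩
    rw [hr] at hd
    exact hn p hp hd hpπ

theorem card_sup_eq {X : Type*} [Group X] [Finite X] (A G : Subgroup X)
    (hAG : A ≤ Subgroup.normalizer (G : Set X)) (hcop : (Nat.card A).Coprime (Nat.card G)) :
    Nat.card (G ⊔ A : Subgroup X) = Nat.card G * Nat.card A := by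
  have h1 := Cfsg.Agent.Lib.Helper19.relIndex_sup_of_le_normalizer G A hAG
  have h2 : A.relIndex G = Nat.card G := by
    rw [← Subgroup.inf_relIndex_right, (Subgroup.disjoint_of_coprime_natCard hcop).eq_bot,
      Subgroup.relIndex_bot_left]
  have h3 := Cfsg.Agent.Lib.Lead.Cores.card_mul_relIndex_of_le (le_sup_right : A ≤ G ⊔ A)
  rw [h1, h2] at h3
  rw [← h3, mul_comm]

theorem inv_hall_card {X : Type*} [Group X] [Finite X] (A G : Subgroup X)
    (hAG : A ≤ Subgroup.normalizer (G : Set X)) (hcop : (Nat.card A).Coprime (Nat.card G))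
    [hsolv : Group.IsSolvable G] (m n : ℕ) (hG : Nat.card G = m * n) (hmn : m.Coprime n) :
    (∃ H : Subgroup X, H ≤ G ∧ Nat.card H = m ∧ A ≤ Subgroup.normalizer (H : Set X)) ∧
    (∀ H₁ H₂ : Subgroup X, H₁ ≤ G → Nat.card H₁ = m → A ≤ Subgroup.normalizer (H₁ : Set X) →
      H₂ ≤ G → Nat.card H₂ = m → A ≤ Subgroup.normalizer (H₂ : Set X) →
      ∃ c ∈ G ⊓ Subgroup.centralizer (A : Set X), H₂ = H₁.map (MulAut.conj c).toMonoidHom) := by
  classical
  obtain ⟨Γ, hΓ⟩ : ∃ Γ : Subgroup X, Γ = G ⊔ A := ⟨_, rfl⟩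
  have hGΓ : G ≤ Γ := by rw [hΓ]; exact le_sup_left
  have hAΓ : A ≤ Γ := by rw [hΓ]; exact le_sup_right
  have hΓN : Γ ≤ Subgroup.normalizer (G : Set X) := by
    rw [hΓ]; exact sup_le Subgroup.le_normalizer hAG
  have hconj : ∀ (u : X), u ∈ Subgroup.normalizer (G : Set X) → ∀ H : Subgroup X, H ≤ G →
      Nat.card H = m →
      (MulAut.conj u • H ≤ G ∧ Nat.card (MulAut.conj u • H : Subgroup X) = m) := by
    intro u hu H hH hc
    exact ⟨Cfsg.Agent.Lib.Helper10.Coprime.conj_smul_le_of_le_normalizer hu hH, by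
      rw [Cfsg.Agent.Lib.Lead.Hall.card_smul_conj, hc]⟩
  letI : MulAction ↥Γ {H : Subgroup X // H ≤ G ∧ Nat.card H = m} :=
    { smul := fun u H => ⟨MulAut.conj (u : X) • H.1, hconj u (hΓN u.2) H.1 H.2.1 H.2.2⟩
      one_smul := fun H => Subtype.ext (by
        show MulAut.conj ((1 : ↥Γ) : X) • H.1 = H.1
        rw [Subgroup.coe_one, map_one, one_smul])
      mul_smul := fun u v H => Subtype.ext (by
        show MulAut.conj ((u * v : ↥Γ) : X) • H.1 = MulAut.conj (u : X) • (MulAut.conj (v : X) • H.1)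
        rw [Subgroup.coe_mul, map_mul, mul_smul]) }
  have hsmul : ∀ (u : ↥Γ) (H : {H : Subgroup X // H ≤ G ∧ Nat.card H = m}),
      ((u • H : {H : Subgroup X // H ≤ G ∧ Nat.card H = m}) : Subgroup X) =
        MulAut.conj (u : X) • H.1 := fun u H => rfl
  haveI : Nonempty {H : Subgroup X // H ≤ G ∧ Nat.card H = m} := by
    obtain ⟨H', hH'⟩ := Cfsg.Agent.Lib.Lead.Hall.hall_exists (G := ↥G) m n hG hmn
    exact ⟨⟨H'.map G.subtype, Subgroup.map_subtype_le _, by
      rw [Subgroup.card_map_of_injective G.subtype_injective, hH']⟩⟩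
  obtain ⟨K, hKdef⟩ : ∃ K : Subgroup ↥Γ, K = G.subgroupOf Γ := ⟨_, rfl⟩
  obtain ⟨Hc, hHcdef⟩ : ∃ Hc : Subgroup ↥Γ, Hc = A.subgroupOf Γ := ⟨_, rfl⟩
  haveI hKn : K.Normal := by
    rw [hKdef]; exact (Subgroup.normal_subgroupOf_iff_le_normalizer hGΓ).2 hΓN
  have hKcard : Nat.card K = Nat.card G := by
    rw [hKdef]; exact Nat.card_congr (Subgroup.subgroupOfEquivOfLe hGΓ).toEquiv
  have hHcard : Nat.card Hc = Nat.card A := by
    rw [hHcdef]; exact Nat.card_congr (Subgroup.subgroupOfEquivOfLe hAΓ).toEquiv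
  have hΓcard : Nat.card Γ = Nat.card G * Nat.card A := by
    rw [hΓ]; exact card_sup_eq A G hAG hcop
  have hc : Subgroup.IsComplement' K Hc :=
    Subgroup.isComplement'_of_coprime (by rw [hKcard, hHcard, hΓcard])
      (by rw [hKcard, hHcard]; exact hcop.symm)
  have hidx : K.index = Nat.card A := by
    have h1 := Subgroup.card_mul_index K
    rw [hKcard, hΓcard] at h1
    exact Nat.eq_of_mul_eq_mul_left Nat.card_pos h1
  have hcop' : (Nat.card K).Coprime K.index := by
    rw [hKcard, hidx]; exact hcop.symm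
  have hsolvK : Group.IsSolvable K := by
    rw [hKdef]
    exact Group.isSolvable_of_isSolvable_injective
      (f := (Subgroup.subgroupOfEquivOfLe hGΓ).toMonoidHom) (MulEquiv.injective _)
  have htrans : MulAction.IsPretransitive K {H : Subgroup X // H ≤ G ∧ Nat.card H = m} := by
    constructor
    intro H₁ H₂
    have hc1 : Nat.card (H₁.1.subgroupOf G) = m := by
      rw [Nat.card_congr (Subgroup.subgroupOfEquivOfLe H₁.2.1).toEquiv]; exact H₁.2.2
    have hc2 : Nat.card (H₂.1.subgroupOf G) = m := by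
      rw [Nat.card_congr (Subgroup.subgroupOfEquivOfLe H₂.2.1).toEquiv]; exact H₂.2.2
    obtain ⟨g, hg⟩ := Cfsg.Agent.Lib.Lead.Hall.hall_conj (G := ↥G) m n hG hmn
      (H₁.1.subgroupOf G) (H₂.1.subgroupOf G) hc1 hc2
    have hgK : (⟨(g : X), hGΓ g.2⟩ : ↥Γ) ∈ K := by
      rw [hKdef]; exact Subgroup.mem_subgroupOf.2 g.2
    refine ⟨⟨⟨(g : X), hGΓ g.2⟩, hgK⟩, ?_⟩
    apply Subtype.ext
    show MulAut.conj (g : X) • H₁.1 = H₂.1
    symm
    apply Subgroup.eq_of_le_of_card_ge
    · intro x hx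
      rw [Cfsg.Agent.Lib.Helper10.Coprime.mem_conj_smul_iff]
      have hxG : x ∈ G := H₂.2.1 hx
      have h1 : (⟨x, hxG⟩ : ↥G) ∈ MulAut.conj g • (H₁.1.subgroupOf G) := by
        rw [hg]; exact Subgroup.mem_subgroupOf.2 hx
      rw [Cfsg.Agent.Lib.Helper10.Coprime.mem_conj_smul_iff] at h1
      exact Subgroup.mem_subgroupOf.1 h1
    · rw [Cfsg.Agent.Lib.Lead.Hall.card_smul_conj, H₁.2.2, H₂.2.2]
  obtain ⟨hex, huniq⟩ := Cfsg.Agent.S0059.result K Hc hc hcop' (Or.inl hsolvK) htrans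
  have hfixed : ∀ H : Subgroup X, ∀ (h1 : H ≤ G) (h2 : Nat.card H = m),
      A ≤ Subgroup.normalizer (H : Set X) →
      ∀ h ∈ Hc, h • (⟨H, h1, h2⟩ : {H : Subgroup X // H ≤ G ∧ Nat.card H = m}) = ⟨H, h1, h2⟩ := by
    intro H h1 h2 hn h hh
    apply Subtype.ext
    show MulAut.conj (h : X) • H = H
    rw [hHcdef] at hh
    exact Cfsg.Agent.Lib.Helper10.Coprime.mem_normalizer_iff_conj_smul.1
      (hn (Subgroup.mem_subgroupOf.1 hh))
  constructor
  · obtain ⟨x, hx⟩ := hex
    refine ⟨x.1, x.2.1, x.2.2, ?_⟩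
    intro a ha
    have h1 := hx ⟨a, hAΓ ha⟩ (by rw [hHcdef]; exact Subgroup.mem_subgroupOf.2 ha)
    have h2 : MulAut.conj a • x.1 = x.1 := congrArg Subtype.val h1
    exact Cfsg.Agent.Lib.Helper10.Coprime.mem_normalizer_iff_conj_smul.2 h2
  · intro H₁ H₂ h1 c1 n1 h2 c2 n2
    obtain ⟨k, hk, hkxy⟩ := huniq ⟨H₁, h1, c1⟩ ⟨H₂, h2, c2⟩ (hfixed H₁ h1 c1 n1)
      (hfixed H₂ h2 c2 n2)
    obtain ⟨hkK, hkc⟩ := Subgroup.mem_inf.1 hk
    refine ⟨(k : X), Subgroup.mem_inf.2 ⟨?_, Subgroup.mem_centralizer_iff.2 ?_⟩, ?_⟩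
    · rw [hKdef] at hkK; exact Subgroup.mem_subgroupOf.1 hkK
    · intro a ha
      have h3 := Subgroup.mem_centralizer_iff.1 hkc ⟨a, hAΓ ha⟩
        (by rw [hHcdef]; exact Subgroup.mem_subgroupOf.2 ha)
      exact congrArg Subtype.val h3
    · have h3 : MulAut.conj (k : X) • H₁ = H₂ := congrArg Subtype.val hkxy
      rw [← h3]; rfl

section Quot

variable {X : Type u} [Group X] (N : Subgroup X)

def bar (S : Subgroup X) : Subgroup (↥(Subgroup.normalizer (N : Set X)) ⧸
    N.subgroupOf (Subgroup.normalizer (N : Set X))) :=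
  (S.subgroupOf (Subgroup.normalizer (N : Set X))).map (QuotientGroup.mk' _)

def pull (T : Subgroup (↥(Subgroup.normalizer (N : Set X)) ⧸
    N.subgroupOf (Subgroup.normalizer (N : Set X)))) : Subgroup X :=
  (T.comap (QuotientGroup.mk' (N.subgroupOf (Subgroup.normalizer (N : Set X))))).map
    (Subgroup.normalizer (N : Set X)).subtype

theorem mem_bar {S : Subgroup X} {x : ↥(Subgroup.normalizer (N : Set X)) ⧸
    N.subgroupOf (Subgroup.normalizer (N : Set X))} :
    x ∈ bar N S ↔ ∃ s : ↥(Subgroup.normalizer (N : Set X)), (s : X) ∈ S ∧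
      QuotientGroup.mk' (N.subgroupOf (Subgroup.normalizer (N : Set X))) s = x := by
  unfold bar
  rw [Subgroup.mem_map]
  constructor
  · rintro ⟨s, hs, rfl⟩; exact ⟨s, hs, rfl⟩
  · rintro ⟨s, hs, rfl⟩; exact ⟨s, hs, rfl⟩

theorem mem_pull {T : Subgroup (↥(Subgroup.normalizer (N : Set X)) ⧸
    N.subgroupOf (Subgroup.normalizer (N : Set X)))} {x : X} :
    x ∈ pull N T ↔ ∃ h : x ∈ Subgroup.normalizer (N : Set X),
      QuotientGroup.mk' (N.subgroupOf (Subgroup.normalizer (N : Set X))) ⟨x, h⟩ ∈ T := by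
  unfold pull
  rw [Subgroup.mem_map]
  constructor
  · rintro ⟨y, hy, rfl⟩; exact ⟨y.2, hy⟩
  · rintro ⟨h, hx⟩; exact ⟨⟨x, h⟩, hx, rfl⟩

theorem le_pull (T : Subgroup (↥(Subgroup.normalizer (N : Set X)) ⧸
    N.subgroupOf (Subgroup.normalizer (N : Set X)))) : N ≤ pull N T := by
  intro x hx
  rw [mem_pull]
  refine ⟨Subgroup.le_normalizer hx, ?_⟩
  have h1 : QuotientGroup.mk' (N.subgroupOf (Subgroup.normalizer (N : Set X)))
      ⟨x, Subgroup.le_normalizer hx⟩ = 1 :=
    (QuotientGroup.eq_one_iff _).2 (Subgroup.mem_subgroupOf.2 hx)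
  rw [h1]; exact T.one_mem

theorem pull_mono {T₁ T₂ : Subgroup (↥(Subgroup.normalizer (N : Set X)) ⧸
    N.subgroupOf (Subgroup.normalizer (N : Set X)))} (h : T₁ ≤ T₂) : pull N T₁ ≤ pull N T₂ :=
  Subgroup.map_mono (Subgroup.comap_mono h)

theorem bar_mono {S₁ S₂ : Subgroup X} (h : S₁ ≤ S₂) : bar N S₁ ≤ bar N S₂ :=
  Subgroup.map_mono (fun _ hx => h hx)

theorem le_pull_bar {S : Subgroup X} (hS : S ≤ Subgroup.normalizer (N : Set X)) :
    S ≤ pull N (bar N S) := by
  intro x hx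
  rw [mem_pull]
  exact ⟨hS hx, (mem_bar N).2 ⟨⟨x, hS hx⟩, hx, rfl⟩⟩

theorem pull_bar_le {S : Subgroup X} (hNS : N ≤ S) : pull N (bar N S) ≤ S := by
  intro x hx
  rw [mem_pull] at hx
  obtain ⟨h, hx⟩ := hx
  rw [mem_bar] at hx
  obtain ⟨s, hs, hsx⟩ := hx
  have h1 : s⁻¹ * ⟨x, h⟩ ∈ N.subgroupOf (Subgroup.normalizer (N : Set X)) :=
    QuotientGroup.eq.1 hsx
  have h2 : (s : X)⁻¹ * x ∈ N := Subgroup.mem_subgroupOf.1 h1
  have h3 : x = s * ((s : X)⁻¹ * x) := by group
  rw [h3]; exact S.mul_mem hs (hNS h2)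

theorem card_pull [Finite X] (T : Subgroup (↥(Subgroup.normalizer (N : Set X)) ⧸
    N.subgroupOf (Subgroup.normalizer (N : Set X)))) :
    Nat.card (pull N T) = Nat.card N * Nat.card T := by
  unfold pull
  rw [Subgroup.card_map_of_injective (Subgroup.subtype_injective _),
    Cfsg.Agent.Lib.Lead.Hall.card_comap_mk]
  congr 1
  exact Nat.card_congr (Subgroup.subgroupOfEquivOfLe Subgroup.le_normalizer).toEquiv

theorem card_bar_dvd [Finite X] (S : Subgroup X) : Nat.card (bar N S) ∣ Nat.card S := by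
  unfold bar
  exact (Subgroup.card_map_dvd _ _).trans
    (Cfsg.Agent.Lib.Helper10.Coprime.card_subgroupOf_dvd S _)

theorem bar_normalizer [Finite X] {S : Subgroup X} {a : X}
    (ha : a ∈ Subgroup.normalizer (N : Set X)) (haS : a ∈ Subgroup.normalizer (S : Set X)) :
    QuotientGroup.mk' (N.subgroupOf (Subgroup.normalizer (N : Set X))) ⟨a, ha⟩ ∈
      Subgroup.normalizer ((bar N S : Subgroup _) : Set _) := by
  apply Cfsg.Agent.Lib.Helper10.Coprime.mem_normalizer_of_conj_mem
  intro t ht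
  rw [mem_bar] at ht ⊢
  obtain ⟨s, hs, rfl⟩ := ht
  refine ⟨⟨a, ha⟩ * s * ⟨a, ha⟩⁻¹, ?_, by simp⟩
  exact (Subgroup.mem_normalizer_iff.1 haS _).1 hs

theorem pull_normalizer [Finite X] {T : Subgroup (↥(Subgroup.normalizer (N : Set X)) ⧸
    N.subgroupOf (Subgroup.normalizer (N : Set X)))} {a : X}
    (ha : a ∈ Subgroup.normalizer (N : Set X))
    (haT : QuotientGroup.mk' (N.subgroupOf (Subgroup.normalizer (N : Set X))) ⟨a, ha⟩ ∈
      Subgroup.normalizer (T : Set _)) :
    a ∈ Subgroup.normalizer ((pull N T : Subgroup X) : Set X) := by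
  apply Cfsg.Agent.Lib.Helper10.Coprime.mem_normalizer_of_conj_mem
  intro x hx
  rw [mem_pull] at hx ⊢
  obtain ⟨h, hx⟩ := hx
  refine ⟨Subgroup.mul_mem _ (Subgroup.mul_mem _ ha h) (Subgroup.inv_mem _ ha), ?_⟩
  have h1 : QuotientGroup.mk' (N.subgroupOf (Subgroup.normalizer (N : Set X)))
      ⟨a * x * a⁻¹, Subgroup.mul_mem _ (Subgroup.mul_mem _ ha h) (Subgroup.inv_mem _ ha)⟩ =
      QuotientGroup.mk' (N.subgroupOf (Subgroup.normalizer (N : Set X))) ⟨a, ha⟩ *
        QuotientGroup.mk' (N.subgroupOf (Subgroup.normalizer (N : Set X))) ⟨x, h⟩ *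
        (QuotientGroup.mk' (N.subgroupOf (Subgroup.normalizer (N : Set X))) ⟨a, ha⟩)⁻¹ := by
    rw [← map_inv, ← map_mul, ← map_mul]; rfl
  rw [h1]
  exact (Subgroup.mem_normalizer_iff.1 haT _).1 hx

theorem bar_solvable {G : Subgroup X} (hGM : G ≤ Subgroup.normalizer (N : Set X))
    (h : Group.IsSolvable G) : Group.IsSolvable (bar N G) := by
  unfold bar
  haveI : Group.IsSolvable ↥(G.subgroupOf (Subgroup.normalizer (N : Set X))) :=
    Group.isSolvable_of_isSolvable_injective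
      (f := (Subgroup.subgroupOfEquivOfLe hGM).toMonoidHom) (MulEquiv.injective _)
  exact Group.isSolvable_of_surjective (MonoidHom.subgroupMap_surjective _ _)

end Quot

theorem normalizer_sup {X : Type*} [Group X] {a : X} {S T : Subgroup X}
    (hS : a ∈ Subgroup.normalizer (S : Set X)) (hT : a ∈ Subgroup.normalizer (T : Set X)) :
    a ∈ Subgroup.normalizer ((S ⊔ T : Subgroup X) : Set X) := by
  rw [Cfsg.Agent.Lib.Helper10.Coprime.mem_normalizer_iff_conj_smul] at hS hT ⊢
  rw [Subgroup.smul_sup, hS, hT]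

theorem inv_hall_le (π : Set ℕ) : ∀ (k : ℕ) (X : Type u) [Group X] [Finite X] (A G U : Subgroup X),
    Nat.card G = k → A ≤ Subgroup.normalizer (G : Set X) → (Nat.card A).Coprime (Nat.card G) →
    Group.IsSolvable G → U ≤ G → A ≤ Subgroup.normalizer (U : Set X) →
    (∀ p : ℕ, p.Prime → p ∣ Nat.card U → p ∈ π) →
    ∃ H : Subgroup X, Cfsg.IsPiHallOf π H G ∧ A ≤ Subgroup.normalizer (H : Set X) ∧ U ≤ H := by
  intro k
  induction k using Nat.strong_induction_on with
  | _ k ih =>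
    intro X _ _ A G U hk hAG hcop hsolv hUG hAU hUπ
    by_cases hG1 : G = ⊥
    · subst hG1
      refine ⟨⊥, ⟨le_rfl, ?_, ?_⟩, ?_, hUG⟩
      · intro p hp hd
        rw [Subgroup.card_bot] at hd
        exact absurd (Nat.dvd_one.1 hd) hp.one_lt.ne'
      · intro p hp _ hd
        rw [Subgroup.relIndex_self] at hd
        exact absurd (Nat.dvd_one.1 hd) hp.one_lt.ne'
      · intro a _
        apply Cfsg.Agent.Lib.Helper10.Coprime.mem_normalizer_of_conj_mem
        intro s hs
        rw [Subgroup.mem_bot] at hs ⊢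
        rw [hs]; group
    · haveI : Nontrivial ↥G := (Subgroup.nontrivial_iff_ne_bot G).2 hG1
      haveI := hsolv
      obtain ⟨N₀, hN₀n, -, p, e, hp, he, hN₀card⟩ :=
        Cfsg.Agent.Lib.Lead.Hall.exists_minimal_normal ↥G
      haveI : Fact p.Prime := ⟨hp⟩
      obtain ⟨P, hPdef⟩ : ∃ P : Subgroup ↥G, P = Cfsg.pCore p ↥G := ⟨_, rfl⟩
      have hPn : P.Normal := by rw [hPdef]; exact Cfsg.Agent.Lib.Lead.Cores.pCore_normal p
      have hPp : IsPGroup p P := by rw [hPdef]; exact Cfsg.Agent.Lib.Lead.Cores.pCore_isPGroup p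
      have hPchar : P.Characteristic := by
        rw [hPdef]; exact Cfsg.Agent.Lib.Helper9.pCore_characteristic p ↥G
      have hN₀P : N₀ ≤ P := by
        rw [hPdef]
        exact Cfsg.Agent.Lib.Lead.Cores.le_pCore hN₀n (IsPGroup.of_card hN₀card)
      have hP1 : P ≠ ⊥ := by
        intro h
        rw [h, le_bot_iff] at hN₀P
        rw [hN₀P, Subgroup.card_bot] at hN₀card
        exact absurd hN₀card.symm (Nat.one_lt_pow he.ne' hp.one_lt).ne'
      obtain ⟨N, hNdef⟩ : ∃ N : Subgroup X, N = P.map G.subtype := ⟨_, rfl⟩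
      have hNG : N ≤ G := by rw [hNdef]; exact Subgroup.map_subtype_le _
      have hNmem : ∀ x, x ∈ N → ∃ y : ↥G, y ∈ P ∧ (y : X) = x := by
        intro x hx
        rw [hNdef] at hx
        obtain ⟨y, hy, rfl⟩ := Subgroup.mem_map.1 hx
        exact ⟨y, hy, rfl⟩
      have hmemN : ∀ y : ↥G, y ∈ P → (y : X) ∈ N := by
        intro y hy
        rw [hNdef]; exact Subgroup.mem_map_of_mem G.subtype hy
      have hN1 : N ≠ ⊥ := by
        intro h
        apply hP1
        rw [eq_bot_iff]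
        intro y hy
        have h1 := hmemN y hy
        rw [h, Subgroup.mem_bot] at h1
        rw [Subgroup.mem_bot]
        exact Subtype.ext h1
      have hNp : IsPGroup p N := by rw [hNdef]; exact hPp.map _
      obtain ⟨j, hj⟩ := IsPGroup.iff_card.1 hNp
      have hN2 : 2 ≤ Nat.card N := (Subgroup.one_lt_card_iff_ne_bot N).2 hN1
      have hNprime : ∀ q : ℕ, q.Prime → q ∣ Nat.card N → q = p := by
        intro q hq hd
        rw [hj] at hd
        exact (Nat.prime_dvd_prime_iff_eq hq hp).1 (hq.dvd_of_dvd_pow hd)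
      have hGN : G ≤ Subgroup.normalizer (N : Set X) := by
        intro g hg
        apply Cfsg.Agent.Lib.Helper10.Coprime.mem_normalizer_of_conj_mem
        intro x hx
        obtain ⟨y, hy, rfl⟩ := hNmem x hx
        exact hmemN (⟨g, hg⟩ * y * ⟨g, hg⟩⁻¹) (hPn.conj_mem y hy ⟨g, hg⟩)
      have hAN : A ≤ Subgroup.normalizer (N : Set X) := by
        intro a ha
        apply Cfsg.Agent.Lib.Helper10.Coprime.mem_normalizer_of_conj_mem
        intro x hx
        obtain ⟨y, hy, rfl⟩ := hNmem x hx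
        have h1 := Subgroup.characteristic_iff_map_eq.1 hPchar
          (G.normalizerMonoidHom ⟨a, hAG ha⟩)
        have h2 : (G.normalizerMonoidHom ⟨a, hAG ha⟩) y ∈ P := by
          rw [← h1]; exact Subgroup.mem_map_of_mem _ hy
        exact hmemN _ h2
      have hUM : U ≤ Subgroup.normalizer (N : Set X) := hUG.trans hGN
      have hGbar : pull N (bar N G) = G := le_antisymm (pull_bar_le N hNG) (le_pull_bar N hGN)
      have hcardG : Nat.card G = Nat.card N * Nat.card (bar N G) := by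
        rw [← card_pull, hGbar]
      have hlt : Nat.card (bar N G) < k := by
        rw [← hk, hcardG]
        have : 0 < Nat.card (bar N G) := Nat.card_pos
        nlinarith
      have hAGbar : bar N A ≤ Subgroup.normalizer ((bar N G : Subgroup _) : Set _) := by
        intro x hx
        obtain ⟨s, hs, rfl⟩ := (mem_bar N).1 hx
        exact bar_normalizer N s.2 (hAG hs)
      have hAUbar : bar N A ≤ Subgroup.normalizer ((bar N U : Subgroup _) : Set _) := by
        intro x hx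
        obtain ⟨s, hs, rfl⟩ := (mem_bar N).1 hx
        exact bar_normalizer N s.2 (hAU hs)
      have hcopbar : (Nat.card (bar N A)).Coprime (Nat.card (bar N G)) :=
        Nat.Coprime.coprime_dvd_left (card_bar_dvd N A)
          (Nat.Coprime.coprime_dvd_right (card_bar_dvd N G) hcop)
      have hUπbar : ∀ q : ℕ, q.Prime → q ∣ Nat.card (bar N U) → q ∈ π :=
        fun q hq hd => hUπ q hq (hd.trans (card_bar_dvd N U))
      obtain ⟨T, hT, hAT, hUT⟩ := ih _ hlt _ (bar N A) (bar N G) (bar N U) rfl hAGbar hcopbar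
        (bar_solvable N hGN hsolv) (bar_mono N hUG) hAUbar hUπbar
      obtain ⟨H₁, hH₁def⟩ : ∃ H₁, H₁ = pull N T := ⟨_, rfl⟩
      have hNH₁ : N ≤ H₁ := by rw [hH₁def]; exact le_pull N T
      have hH₁G : H₁ ≤ G := by rw [hH₁def, ← hGbar]; exact pull_mono N hT.1
      have hAH₁ : A ≤ Subgroup.normalizer (H₁ : Set X) := by
        intro a ha
        rw [hH₁def]
        exact pull_normalizer N (hAN ha) (hAT ((mem_bar N).2 ⟨⟨a, hAN ha⟩, ha, rfl⟩))
      have hUH₁ : U ≤ H₁ := by
        rw [hH₁def]; exact (le_pull_bar N hUM).trans (pull_mono N hUT)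
      have hH₁card : Nat.card H₁ = Nat.card N * Nat.card T := by rw [hH₁def]; exact card_pull N T
      obtain ⟨m', n', hmn', hcop', hm', hn'⟩ := exists_pi_part π (Nat.card (bar N G)) Nat.card_pos
      have hTcard : Nat.card T = m' := ((hall_iff π (bar N G) m' n' hmn' hm' hn' T).1 hT).2
      by_cases hpπ : p ∈ π
      · refine ⟨H₁, ?_, hAH₁, hUH₁⟩
        apply (hall_iff π G (Nat.card N * m') n' (by rw [hcardG, hmn']; ring) ?_ hn' H₁).2
          ⟨hH₁G, by rw [hH₁card, hTcard]⟩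
        intro q hq hd
        rcases (Nat.Prime.dvd_mul hq).1 hd with h | h
        · rw [hNprime q hq h]; exact hpπ
        · exact hm' q hq h
      · have hNπ : ∀ q : ℕ, q.Prime → q ∣ Nat.card N → q ∉ π := by
          intro q hq hd
          rw [hNprime q hq hd]; exact hpπ
        have hcopmN : m'.Coprime (Nat.card N) :=
          Nat.coprime_of_dvd (fun q hq hqm hqN => hNπ q hq hqN (hm' q hq hqm))
        by_cases hH₁ : H₁ = G
        · have hGeq : Nat.card G = m' * Nat.card N := by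
            rw [← hH₁, hH₁card, hTcard]; ring
          obtain ⟨H₂, hH₂G, hH₂card, hAH₂⟩ := (inv_hall_card A G hAG hcop m' (Nat.card N) hGeq
            hcopmN).1
          have hH₂N : H₂ ≤ Subgroup.normalizer (N : Set X) := hH₂G.trans hGN
          have hcopUN : (Nat.card U).Coprime (Nat.card N) :=
            Nat.coprime_of_dvd (fun q hq hqU hqN => hNπ q hq hqN (hUπ q hq hqU))
          obtain ⟨W, hWdef⟩ : ∃ W, W = N ⊔ U := ⟨_, rfl⟩
          have hWG : W ≤ G := by rw [hWdef]; exact sup_le hNG hUG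
          have hAW : A ≤ Subgroup.normalizer (W : Set X) := by
            intro a ha
            rw [hWdef]; exact normalizer_sup (hAN ha) (hAU ha)
          have hWcard : Nat.card W = Nat.card N * Nat.card U := by
            rw [hWdef]; exact card_sup_eq U N hUM hcopUN
          obtain ⟨U₂, hU₂def⟩ : ∃ U₂, U₂ = W ⊓ H₂ := ⟨_, rfl⟩
          have hU₂W : U₂ ≤ W := by rw [hU₂def]; exact inf_le_left
          have hU₂H₂ : U₂ ≤ H₂ := by rw [hU₂def]; exact inf_le_right
          have hAU₂ : A ≤ Subgroup.normalizer (U₂ : Set X) := by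
            intro a ha
            apply Cfsg.Agent.Lib.Helper10.Coprime.mem_normalizer_of_conj_mem
            intro x hx
            rw [hU₂def] at hx ⊢
            obtain ⟨hxW, hxH⟩ := Subgroup.mem_inf.1 hx
            exact Subgroup.mem_inf.2 ⟨(Subgroup.mem_normalizer_iff.1 (hAW ha) x).1 hxW,
              (Subgroup.mem_normalizer_iff.1 (hAH₂ ha) x).1 hxH⟩
          have hNH₂ : N ⊔ H₂ = G := by
            apply Subgroup.eq_of_le_of_card_ge (sup_le hNG hH₂G)
            rw [card_sup_eq H₂ N hH₂N (by rw [hH₂card]; exact hcopmN), hGeq, hH₂card, mul_comm]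
          have hWle : W ≤ N ⊔ U₂ := by
            intro x hx
            have hxG : x ∈ N ⊔ H₂ := by rw [hNH₂]; exact hWG hx
            obtain ⟨n₁, hn₁, h₂, hh₂, rfl⟩ :=
              Cfsg.Agent.Lib.Helper19.exists_mul_of_mem_sup N H₂ hH₂N x hxG
            have hh₂W : h₂ ∈ W := by
              have h1 : h₂ = n₁⁻¹ * (n₁ * h₂) := by group
              rw [h1]
              exact W.mul_mem (W.inv_mem (by rw [hWdef]; exact Subgroup.mem_sup_left hn₁)) hx
            exact Subgroup.mul_mem _ (Subgroup.mem_sup_left hn₁)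
              (Subgroup.mem_sup_right (by rw [hU₂def]; exact Subgroup.mem_inf.2 ⟨hh₂W, hh₂⟩))
          have hWeq : W = N ⊔ U₂ := le_antisymm hWle
            (sup_le (by rw [hWdef]; exact le_sup_left) hU₂W)
          have hcopU₂N : (Nat.card U₂).Coprime (Nat.card N) :=
            Nat.Coprime.coprime_dvd_left (Subgroup.card_dvd_of_le hU₂H₂)
              (by rw [hH₂card]; exact hcopmN)
          have hU₂card : Nat.card U₂ = Nat.card U := by
            have h1 : Nat.card W = Nat.card N * Nat.card U₂ := by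
              rw [hWeq]; exact card_sup_eq U₂ N (hU₂H₂.trans hH₂N) hcopU₂N
            rw [hWcard] at h1
            exact (Nat.eq_of_mul_eq_mul_left (by omega) h1).symm
          haveI hWsolv : Group.IsSolvable W :=
            Cfsg.Agent.Lib.Helper10.Coprime.solvable_of_le hWG hsolv
          have hcopAW : (Nat.card A).Coprime (Nat.card W) :=
            Nat.Coprime.coprime_dvd_right (Subgroup.card_dvd_of_le hWG) hcop
          obtain ⟨c, hc, hUc⟩ := (inv_hall_card A W hAW hcopAW (Nat.card U) (Nat.card N)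
            (by rw [hWcard, mul_comm]) hcopUN).2 U₂ U hU₂W hU₂card hAU₂
            (by rw [hWdef]; exact le_sup_right) rfl hAU
          obtain ⟨hcW, hcA⟩ := Subgroup.mem_inf.1 hc
          have hcG : c ∈ G := hWG hcW
          refine ⟨H₂.map (MulAut.conj c).toMonoidHom, ?_, ?_, ?_⟩
          · apply (hall_iff π G m' (Nat.card N) hGeq hm' hNπ _).2
            refine ⟨?_, ?_⟩
            · rintro _ ⟨y, hy, rfl⟩
              exact G.mul_mem (G.mul_mem hcG (hH₂G hy)) (G.inv_mem hcG)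
            · rw [Subgroup.card_map_of_injective (MulEquiv.injective _), hH₂card]
          · intro a ha
            apply Cfsg.Agent.Lib.Helper10.Coprime.mem_normalizer_of_conj_mem
            rintro _ ⟨y, hy, rfl⟩
            have hy' : a * y * a⁻¹ ∈ H₂ := (Subgroup.mem_normalizer_iff.1 (hAH₂ ha) y).1 hy
            refine ⟨a * y * a⁻¹, hy', ?_⟩
            have hca : a * c = c * a := Subgroup.mem_centralizer_iff.1 hcA a ha
            show c * (a * y * a⁻¹) * c⁻¹ = a * (c * y * c⁻¹) * a⁻¹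
            have hca' : c⁻¹ * a⁻¹ = a⁻¹ * c⁻¹ := by rw [← mul_inv_rev, ← mul_inv_rev, hca]
            calc c * (a * y * a⁻¹) * c⁻¹ = (c * a) * y * (a⁻¹ * c⁻¹) := by group
              _ = (a * c) * y * (c⁻¹ * a⁻¹) := by rw [hca, hca']
              _ = a * (c * y * c⁻¹) * a⁻¹ := by group
          · rw [hUc]
            exact Subgroup.map_mono hU₂H₂
        · have hlt₁ : Nat.card H₁ < k := by
            rw [← hk]; exact Cfsg.Agent.Lib.Helper9.card_lt_of_le_of_ne hH₁G hH₁
          obtain ⟨H, hH, hAH, hUH⟩ := ih _ hlt₁ X A H₁ U rfl hAH₁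
            (Nat.Coprime.coprime_dvd_right (Subgroup.card_dvd_of_le hH₁G) hcop)
            (Cfsg.Agent.Lib.Helper10.Coprime.solvable_of_le hH₁G hsolv) hUH₁ hAU hUπ
          refine ⟨H, ?_, hAH, hUH⟩
          have hHcard := (hall_iff π H₁ m' (Nat.card N) (by rw [hH₁card, hTcard]; ring) hm' hNπ
            H).1 hH
          apply (hall_iff π G m' (Nat.card N * n') (by rw [hcardG, hmn']; ring) hm' ?_ H).2
            ⟨hHcard.1.trans hH₁G, hHcard.2⟩
          intro q hq hd
          rcases (Nat.Prime.dvd_mul hq).1 hd with h | h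
          · exact hNπ q hq h
          · exact hn' q hq h

end Cfsg.Agent.Lib.Helper20.InvHall
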