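import Mathlib
import Cfsg.Prelude.Def_Local
import Cfsg.Agent.Lib.Helper9.Components

set_option autoImplicit false

namespace Cfsg.Agent.Lib.Helper20.QS

open Cfsg Cfsg.Agent.Lib.Helper9
open scoped commutatorElement

theorem commutator_subtype {G : Type*} [Group G] (K : Subgroup G) :
    (commutator ↥K).map K.subtype = ⁅K, K⁆ := by
  rw [commutator_def, Subgroup.map_commutator, ← MonoidHom.range_eq_map, Subgroup.range_subtype]

theorem isPerfect_iff {G : Type*} [Group G] (K : Subgroup G) :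
    Group.IsPerfect ↥K ↔ ⁅K, K⁆ = K := by
  rw [Group.isPerfect_def, ← commutator_subtype]
  constructor
  · intro h
    rw [h, ← MonoidHom.range_eq_map, Subgroup.range_subtype]
  · intro h
    apply Subgroup.map_injective K.subtype_injective
    rw [h, ← MonoidHom.range_eq_map, Subgroup.range_subtype]

theorem qs_internal {G : Type*} [Group G] {L : Subgroup G} (hL : IsQuasisimple L)
    (N : Subgroup G) (hNL : N ≤ L) (hnorm : L ≤ Subgroup.normalizer (N : Set G)) :
    (∀ n ∈ N, ∀ l ∈ L, n * l = l * n) ∨ N = L := by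
  have hn : (N.subgroupOf L).Normal :=
    (Subgroup.normal_subgroupOf_iff_le_normalizer hNL).mpr hnorm
  rcases qs_normal_le_center_or_eq_top hL (N.subgroupOf L) hn with h | h
  · left
    intro n hn l hl
    have h1 : (⟨n, hNL hn⟩ : L) ∈ Subgroup.center L := h (Subgroup.mem_subgroupOf.mpr hn)
    have h2 := Subgroup.mem_center_iff.mp h1 ⟨l, hl⟩
    exact (congrArg Subtype.val h2).symm
  · right
    exact le_antisymm hNL (Subgroup.subgroupOf_eq_top.mp h)

theorem qs_of_internal {G : Type*} [Group G] (K : Subgroup G) (hperf : ⁅K, K⁆ = K)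
    (hnt : K ≠ ⊥)
    (hmax : ∀ M : Subgroup G, M ≤ K → K ≤ Subgroup.normalizer (M : Set G) →
      (∀ m ∈ M, ∀ k ∈ K, m * k = k * m) ∨ M = K) : IsQuasisimple K := by
  have hP : Group.IsPerfect ↥K := (isPerfect_iff K).mpr hperf
  refine ⟨hP, ?_⟩
  apply isSimpleGroup_quotient_of_maximal
  · intro h
    apply hnt
    rw [← hperf, eq_bot_iff, Subgroup.commutator_le]
    intro a ha b hb
    rw [Subgroup.mem_bot, commutatorElement_eq_one_iff_mul_comm]
    have h1 : (⟨b, hb⟩ : K) ∈ Subgroup.center K := h ▸ Subgroup.mem_top _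
    have h2 := Subgroup.mem_center_iff.mp h1 ⟨a, ha⟩
    exact congrArg Subtype.val h2
  · intro M hM hle
    have hM' : M.map K.subtype ≤ K := Subgroup.map_subtype_le M
    have hnorm : K ≤ Subgroup.normalizer ((M.map K.subtype : Subgroup G) : Set G) := by
      intro k hk
      rw [Subgroup.mem_normalizer_iff]
      intro x
      constructor
      · rintro ⟨m, hm, rfl⟩
        exact ⟨⟨k, hk⟩ * m * ⟨k, hk⟩⁻¹, hM.conj_mem m hm ⟨k, hk⟩, rfl⟩
      · rintro ⟨m, hm, hmx⟩
        refine ⟨⟨k, hk⟩⁻¹ * m * ⟨k, hk⟩, ?_, ?_⟩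
        · have := hM.conj_mem m hm ⟨k, hk⟩⁻¹
          simpa using this
        · simp only [Subgroup.coe_subtype, Subgroup.coe_mul, Subgroup.coe_inv] at hmx ⊢
          rw [hmx]
          group
    rcases hmax _ hM' hnorm with h | h
    · left
      apply le_antisymm _ hle
      intro m hm
      rw [Subgroup.mem_center_iff]
      intro k
      apply Subtype.ext
      exact (h m ⟨m, hm, rfl⟩ k k.2).symm
    · right
      rw [eq_top_iff]
      intro k _
      have h1 : (k : G) ∈ M.map K.subtype := by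
        rw [h]
        exact k.2
      obtain ⟨m, hm, hmk⟩ := h1
      have h2 : m = k := Subtype.ext hmk
      rwa [h2] at hm

theorem commutatorElement_central {G : Type*} [Group G] {Z : Subgroup G}
    (hZ : Z ≤ Subgroup.center G) (k z k' z' : G) (hz : z ∈ Z) (hz' : z' ∈ Z) :
    ⁅k * z, k' * z'⁆ = ⁅k, k'⁆ := by
  have h1 := Subgroup.mem_center_iff.mp (hZ hz)
  have h2 := Subgroup.mem_center_iff.mp (hZ hz')
  rw [commutatorElement_def, commutatorElement_def]
  have hz1 : ∀ b : G, z * b * z⁻¹ = b := fun b => by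
    rw [← h1 b]
    group
  have hz2 : ∀ b : G, z' * b * z'⁻¹ = b := fun b => by
    rw [← h2 b]
    group
  calc k * z * (k' * z') * (k * z)⁻¹ * (k' * z')⁻¹
      = k * (z * (k' * z') * z⁻¹) * k⁻¹ * (k' * z')⁻¹ := by group
    _ = k * (k' * z') * k⁻¹ * (k' * z')⁻¹ := by rw [hz1]
    _ = k * k' * (z' * k⁻¹ * z'⁻¹) * k'⁻¹ := by group
    _ = k * k' * k⁻¹ * k'⁻¹ := by rw [hz2]

theorem commutator_le_self {G : Type*} [Group G] (K : Subgroup G) : ⁅K, K⁆ ≤ K :=
  Subgroup.commutator_le.mpr
    (fun _ ha _ hb => K.mul_mem (K.mul_mem (K.mul_mem ha hb) (K.inv_mem ha)) (K.inv_mem hb))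

end Cfsg.Agent.Lib.Helper20.QS
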