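import Mathlib

set_option autoImplicit false

namespace Cfsg.Agent.Lib.Helper20.SL2Mat

open Matrix

variable {F : Type*} [Field F]

abbrev M2 (F : Type*) [Field F] := Matrix (Fin 2) (Fin 2) F

abbrev SL2 (F : Type*) [Field F] := Matrix.SpecialLinearGroup (Fin 2) F

def IsScalar (g : SL2 F) : Prop :=
  (g : M2 F) 0 1 = 0 ∧ (g : M2 F) 1 0 = 0 ∧ (g : M2 F) 0 0 = (g : M2 F) 1 1

theorem det_eq (g : SL2 F) :
    (g : M2 F) 0 0 * (g : M2 F) 1 1 - (g : M2 F) 0 1 * (g : M2 F) 1 0 = 1 := by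
  have := g.det_coe
  rwa [Matrix.det_fin_two] at this

theorem mul_apply' (g h : SL2 F) (i j : Fin 2) :
    ((g * h : SL2 F) : M2 F) i j = (g : M2 F) i 0 * (h : M2 F) 0 j + (g : M2 F) i 1 * (h : M2 F) 1 j := by
  rw [Matrix.SpecialLinearGroup.coe_mul, Matrix.mul_apply, Fin.sum_univ_two]

theorem one00 : ((1 : SL2 F) : M2 F) 0 0 = 1 := by simp
theorem one01 : ((1 : SL2 F) : M2 F) 0 1 = 0 := by simp
theorem one10 : ((1 : SL2 F) : M2 F) 1 0 = 0 := by simp
theorem one11 : ((1 : SL2 F) : M2 F) 1 1 = 1 := by simp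

theorem ext' {g h : SL2 F} (h00 : (g : M2 F) 0 0 = (h : M2 F) 0 0)
    (h01 : (g : M2 F) 0 1 = (h : M2 F) 0 1) (h10 : (g : M2 F) 1 0 = (h : M2 F) 1 0)
    (h11 : (g : M2 F) 1 1 = (h : M2 F) 1 1) : g = h := by
  apply Matrix.SpecialLinearGroup.ext
  intro i j
  fin_cases i <;> fin_cases j <;> assumption

theorem inv00 (g : SL2 F) : ((g⁻¹ : SL2 F) : M2 F) 0 0 = (g : M2 F) 1 1 := by
  rw [Matrix.SpecialLinearGroup.coe_inv, Matrix.adjugate_fin_two]; rfl
theorem inv01 (g : SL2 F) : ((g⁻¹ : SL2 F) : M2 F) 0 1 = -(g : M2 F) 0 1 := by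
  rw [Matrix.SpecialLinearGroup.coe_inv, Matrix.adjugate_fin_two]; rfl
theorem inv10 (g : SL2 F) : ((g⁻¹ : SL2 F) : M2 F) 1 0 = -(g : M2 F) 1 0 := by
  rw [Matrix.SpecialLinearGroup.coe_inv, Matrix.adjugate_fin_two]; rfl
theorem inv11 (g : SL2 F) : ((g⁻¹ : SL2 F) : M2 F) 1 1 = (g : M2 F) 0 0 := by
  rw [Matrix.SpecialLinearGroup.coe_inv, Matrix.adjugate_fin_two]; rfl

def negOne : SL2 F := ⟨!![-1, 0; 0, -1], by simp [Matrix.det_fin_two]⟩

theorem negOne00 : ((negOne : SL2 F) : M2 F) 0 0 = -1 := rfl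
theorem negOne01 : ((negOne : SL2 F) : M2 F) 0 1 = 0 := rfl
theorem negOne10 : ((negOne : SL2 F) : M2 F) 1 0 = 0 := rfl
theorem negOne11 : ((negOne : SL2 F) : M2 F) 1 1 = -1 := rfl

theorem isScalar_one : IsScalar (1 : SL2 F) := ⟨one01, one10, by rw [one00, one11]⟩

theorem isScalar_negOne : IsScalar (negOne : SL2 F) := ⟨rfl, rfl, rfl⟩

theorem negOne_mul_self : (negOne : SL2 F) * negOne = 1 := by
  apply ext' <;> rw [mul_apply'] <;>
    simp [negOne00, negOne01, negOne10, negOne11]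

theorem negOne_ne_one (h2 : (2 : F) ≠ 0) : (negOne : SL2 F) ≠ 1 := by
  intro h
  have h1 := congrArg (fun g : SL2 F => (g : M2 F) 0 0) h
  simp only [negOne00, one00] at h1
  apply h2
  linear_combination -h1

theorem scalar_comm {r : SL2 F} (hr : IsScalar r) (g : SL2 F) : r * g = g * r := by
  obtain ⟨h01, h10, h00⟩ := hr
  apply ext' <;> simp only [mul_apply', h01, h10, h00] <;> ring

theorem scalar_cases {r : SL2 F} (hr : IsScalar r) : r = 1 ∨ r = negOne := by
  obtain ⟨h01, h10, h00⟩ := hr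
  have hd := det_eq r
  rw [h01, h10, h00] at hd
  have h3 : ((r : M2 F) 1 1 - 1) * ((r : M2 F) 1 1 + 1) = 0 := by linear_combination hd
  rcases mul_eq_zero.mp h3 with h | h
  · left
    have h11 : (r : M2 F) 1 1 = 1 := by linear_combination h
    apply ext'
    · rw [h00, h11, one00]
    · rw [h01, one01]
    · rw [h10, one10]
    · rw [h11, one11]
  · right
    have h11 : (r : M2 F) 1 1 = -1 := by linear_combination h
    apply ext'
    · rw [h00, h11, negOne00]
    · rw [h01, negOne01]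
    · rw [h10, negOne10]
    · rw [h11, negOne11]

theorem scalar_of_sq {r : SL2 F} (h2 : (2 : F) ≠ 0) (h : r * r = 1) : IsScalar r := by
  have e00 := congrArg (fun g : SL2 F => (g : M2 F) 0 0) h
  have e01 := congrArg (fun g : SL2 F => (g : M2 F) 0 1) h
  have e10 := congrArg (fun g : SL2 F => (g : M2 F) 1 0) h
  have e11 := congrArg (fun g : SL2 F => (g : M2 F) 1 1) h
  simp only [mul_apply', one00, one01, one10, one11] at e00 e01 e10 e11
  have hd := det_eq r
  have hs : (r : M2 F) 0 0 * ((r : M2 F) 0 0 + (r : M2 F) 1 1) = 2 := by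
    linear_combination e00 + hd
  have hne : (r : M2 F) 0 0 + (r : M2 F) 1 1 ≠ 0 := by
    intro h0
    rw [h0, mul_zero] at hs
    exact h2 hs.symm
  have hb : (r : M2 F) 0 1 = 0 := by
    have : (r : M2 F) 0 1 * ((r : M2 F) 0 0 + (r : M2 F) 1 1) = 0 := by linear_combination e01
    rcases mul_eq_zero.mp this with h | h
    · exact h
    · exact absurd h hne
  have hc : (r : M2 F) 1 0 = 0 := by
    have : (r : M2 F) 1 0 * ((r : M2 F) 0 0 + (r : M2 F) 1 1) = 0 := by linear_combination e10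
    rcases mul_eq_zero.mp this with h | h
    · exact h
    · exact absurd h hne
  refine ⟨hb, hc, ?_⟩
  rw [hb, hc] at hd
  have ha : (r : M2 F) 0 0 ≠ 0 := by
    intro h0
    rw [h0] at hd
    simp at hd
  have : (r : M2 F) 0 0 * ((r : M2 F) 0 0 - (r : M2 F) 1 1) = 0 := by
    rw [hb] at e00
    linear_combination e00 - hd
  rcases mul_eq_zero.mp this with h | h
  · exact absurd h ha
  · linear_combination h

theorem comm_form {r m : SL2 F} (hr : ¬ IsScalar r) (h : m * r = r * m) :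
    ∃ l u : F, (m : M2 F) 0 0 = l * (r : M2 F) 0 0 + u ∧ (m : M2 F) 0 1 = l * (r : M2 F) 0 1 ∧
      (m : M2 F) 1 0 = l * (r : M2 F) 1 0 ∧ (m : M2 F) 1 1 = l * (r : M2 F) 1 1 + u := by
  have e00 := congrArg (fun g : SL2 F => (g : M2 F) 0 0) h
  have e01 := congrArg (fun g : SL2 F => (g : M2 F) 0 1) h
  have e10 := congrArg (fun g : SL2 F => (g : M2 F) 1 0) h
  simp only [mul_apply'] at e00 e01 e10
  by_cases hb : (r : M2 F) 0 1 = 0
  · by_cases hc : (r : M2 F) 1 0 = 0
    · have had : (r : M2 F) 0 0 - (r : M2 F) 1 1 ≠ 0 := by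
        intro h0
        exact hr ⟨hb, hc, by linear_combination h0⟩
      rw [hb] at e01
      rw [hc] at e10
      have hm01 : (m : M2 F) 0 1 = 0 := by
        have : (m : M2 F) 0 1 * ((r : M2 F) 0 0 - (r : M2 F) 1 1) = 0 := by linear_combination -e01
        rcases mul_eq_zero.mp this with h | h
        · exact h
        · exact absurd h had
      have hm10 : (m : M2 F) 1 0 = 0 := by
        have : (m : M2 F) 1 0 * ((r : M2 F) 0 0 - (r : M2 F) 1 1) = 0 := by linear_combination e10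
        rcases mul_eq_zero.mp this with h | h
        · exact h
        · exact absurd h had
      obtain ⟨l, hl⟩ : ∃ l : F, l * ((r : M2 F) 0 0 - (r : M2 F) 1 1) = (m : M2 F) 0 0 - (m : M2 F) 1 1 :=
        ⟨((m : M2 F) 0 0 - (m : M2 F) 1 1) / ((r : M2 F) 0 0 - (r : M2 F) 1 1),
          div_mul_cancel₀ _ had⟩
      refine ⟨l, (m : M2 F) 0 0 - l * (r : M2 F) 0 0, ?_, ?_, ?_, ?_⟩
      · ring
      · rw [hm01, hb, mul_zero]
      · rw [hm10, hc, mul_zero]
      · linear_combination hl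
    · obtain ⟨l, hl⟩ : ∃ l : F, l * (r : M2 F) 1 0 = (m : M2 F) 1 0 :=
        ⟨(m : M2 F) 1 0 / (r : M2 F) 1 0, div_mul_cancel₀ _ hc⟩
      refine ⟨l, (m : M2 F) 0 0 - l * (r : M2 F) 0 0, ?_, ?_, ?_, ?_⟩
      · ring
      · apply mul_right_cancel₀ hc
        linear_combination e00 - (r : M2 F) 0 1 * hl
      · exact hl.symm
      · apply mul_right_cancel₀ hc
        linear_combination e10 + ((r : M2 F) 0 0 - (r : M2 F) 1 1) * hl
  · obtain ⟨l, hl⟩ : ∃ l : F, l * (r : M2 F) 0 1 = (m : M2 F) 0 1 :=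
      ⟨(m : M2 F) 0 1 / (r : M2 F) 0 1, div_mul_cancel₀ _ hb⟩
    refine ⟨l, (m : M2 F) 0 0 - l * (r : M2 F) 0 0, ?_, ?_, ?_, ?_⟩
    · ring
    · exact hl.symm
    · apply mul_right_cancel₀ hb
      linear_combination -e00 - (r : M2 F) 1 0 * hl
    · apply mul_right_cancel₀ hb
      linear_combination -e01 + ((r : M2 F) 0 0 - (r : M2 F) 1 1) * hl

theorem comm_of_comm {r m m' : SL2 F} (hr : ¬ IsScalar r) (h : m * r = r * m)
    (h' : m' * r = r * m') : m * m' = m' * m := by
  obtain ⟨l, u, h00, h01, h10, h11⟩ := comm_form hr h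
  obtain ⟨l', u', h00', h01', h10', h11'⟩ := comm_form hr h'
  apply ext' <;> simp only [mul_apply', h00, h01, h10, h11, h00', h01', h10', h11'] <;> ring

theorem unip_pow (u : SL2 F) (ht : (u : M2 F) 0 0 + (u : M2 F) 1 1 = 2) (n : ℕ) :
    ((u ^ n : SL2 F) : M2 F) 0 0 = 1 + n * ((u : M2 F) 0 0 - 1) ∧
    ((u ^ n : SL2 F) : M2 F) 0 1 = n * (u : M2 F) 0 1 ∧
    ((u ^ n : SL2 F) : M2 F) 1 0 = n * (u : M2 F) 1 0 ∧
    ((u ^ n : SL2 F) : M2 F) 1 1 = 1 + n * ((u : M2 F) 1 1 - 1) := by
  have hd := det_eq u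
  induction n with
  | zero =>
    rw [pow_zero, one00, one01, one10, one11]
    simp
  | succ n ih =>
    obtain ⟨i00, i01, i10, i11⟩ := ih
    rw [pow_succ]
    refine ⟨?_, ?_, ?_, ?_⟩
    · rw [mul_apply', i00, i01]
      push_cast
      linear_combination (n * (u : M2 F) 0 0) * ht - n * hd
    · rw [mul_apply', i00, i01]
      push_cast
      linear_combination (n * (u : M2 F) 0 1) * ht
    · rw [mul_apply', i10, i11]
      push_cast
      linear_combination (n * (u : M2 F) 1 0) * ht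
    · rw [mul_apply', i10, i11]
      push_cast
      linear_combination (n * (u : M2 F) 1 1) * ht - n * hd

theorem unip_eq_one_of_pow {u : SL2 F} (ht : (u : M2 F) 0 0 + (u : M2 F) 1 1 = 2) (n : ℕ)
    (hn : (n : F) ≠ 0) (h : u ^ n = 1) : u = 1 := by
  obtain ⟨i00, i01, i10, i11⟩ := unip_pow u ht n
  rw [h] at i00 i01 i10 i11
  rw [one00] at i00
  rw [one01] at i01
  rw [one10] at i10
  rw [one11] at i11
  apply ext'
  · rw [one00]
    have : (n : F) * ((u : M2 F) 0 0 - 1) = 0 := by linear_combination -i00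
    rcases mul_eq_zero.mp this with h | h
    · exact absurd h hn
    · linear_combination h
  · rw [one01]
    rcases mul_eq_zero.mp i01.symm with h | h
    · exact absurd h hn
    · exact h
  · rw [one10]
    rcases mul_eq_zero.mp i10.symm with h | h
    · exact absurd h hn
    · exact h
  · rw [one11]
    have : (n : F) * ((u : M2 F) 1 1 - 1) = 0 := by linear_combination -i11
    rcases mul_eq_zero.mp this with h | h
    · exact absurd h hn
    · linear_combination h

theorem unip_pow_eq_one {u : SL2 F} (ht : (u : M2 F) 0 0 + (u : M2 F) 1 1 = 2) (n : ℕ)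
    (hn : (n : F) = 0) : u ^ n = 1 := by
  obtain ⟨i00, i01, i10, i11⟩ := unip_pow u ht n
  apply ext'
  · rw [i00, hn, one00]; ring
  · rw [i01, hn, one01]; ring
  · rw [i10, hn, one10]; ring
  · rw [i11, hn, one11]; ring

theorem scalar_of_trace_sq {r : SL2 F} (h2 : (2 : F) ≠ 0)
    (ht : ((r : M2 F) 0 0 + (r : M2 F) 1 1) ^ 2 = 4) (n : ℕ) (hn : (n : F) ≠ 0)
    (hrn : r ^ n = 1) : IsScalar r := by
  apply scalar_of_sq h2
  have hd := det_eq r
  have htu : ((r * r : SL2 F) : M2 F) 0 0 + ((r * r : SL2 F) : M2 F) 1 1 = 2 := by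
    rw [mul_apply', mul_apply']
    linear_combination ht - 2 * hd
  apply unip_eq_one_of_pow htu n hn
  rw [← pow_two, ← pow_mul, mul_comm, pow_mul, hrn, one_pow]

theorem scalar_of_comm_unip {u r : SL2 F} (h2 : (2 : F) ≠ 0)
    (ht : (u : M2 F) 0 0 + (u : M2 F) 1 1 = 2) (hu : u ≠ 1) (hc : r * u = u * r) (n : ℕ)
    (hn : (n : F) ≠ 0) (hrn : r ^ n = 1) : IsScalar r := by
  have hus : ¬ IsScalar u := by
    rintro ⟨h01, h10, h00⟩
    apply hu
    have h11 : (u : M2 F) 1 1 = 1 := by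
      have : (2 : F) * ((u : M2 F) 1 1 - 1) = 0 := by linear_combination ht - h00
      rcases mul_eq_zero.mp this with h | h
      · exact absurd h h2
      · linear_combination h
    apply ext'
    · rw [h00, h11, one00]
    · rw [h01, one01]
    · rw [h10, one10]
    · rw [h11, one11]
  obtain ⟨l, μ, h00, h01, h10, h11⟩ := comm_form hus hc
  have hdu := det_eq u
  have hdr := det_eq r
  rw [h00, h01, h10, h11] at hdr
  apply scalar_of_trace_sq h2 _ n hn hrn
  rw [h00, h11]
  linear_combination 4 * hdr + l ^ 2 * ((u : M2 F) 0 0 + (u : M2 F) 1 1 + 2) * ht - 4 * l ^ 2 * hdu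

theorem trace_conj (a r : SL2 F) :
    ((a * r * a⁻¹ : SL2 F) : M2 F) 0 0 + ((a * r * a⁻¹ : SL2 F) : M2 F) 1 1
      = (r : M2 F) 0 0 + (r : M2 F) 1 1 := by
  have h1 : ((a * r * a⁻¹ : SL2 F) : M2 F).trace = (r : M2 F).trace := by
    rw [Matrix.SpecialLinearGroup.coe_mul, Matrix.trace_mul_comm,
      ← Matrix.SpecialLinearGroup.coe_mul, ← mul_assoc, inv_mul_cancel, one_mul]
  rw [Matrix.trace_fin_two, Matrix.trace_fin_two] at h1
  exact h1

theorem not_comm_conj {a r : SL2 F} (h2 : (2 : F) ≠ 0)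
    (ht : (a : M2 F) 0 0 + (a : M2 F) 1 1 = 2) (ha : a ≠ 1) (n : ℕ) (hn : (n : F) ≠ 0)
    (hrn : r ^ n = 1) (hr : ¬ IsScalar r) (hc : (a * r * a⁻¹) * r = r * (a * r * a⁻¹)) : False := by
  obtain ⟨y, x, h00, h01, h10, h11⟩ := comm_form hr hc
  have htr := trace_conj a r
  rw [h00, h11] at htr
  have hds := det_eq (a * r * a⁻¹)
  rw [h00, h01, h10, h11] at hds
  have hdr := det_eq r
  have key : (1 - y ^ 2) * (((r : M2 F) 0 0 + (r : M2 F) 1 1) ^ 2 - 4) = 0 := by
    linear_combination 4 * hds - 4 * y ^ 2 * hdr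
      - ((r : M2 F) 0 0 + (r : M2 F) 1 1 + 2 * x + ((r : M2 F) 0 0 + (r : M2 F) 1 1) * y) * htr
  rcases mul_eq_zero.mp key with hy | ht2
  · have hy' : (y - 1) * (y + 1) = 0 := by linear_combination -hy
    rcases mul_eq_zero.mp hy' with hy1 | hy1
    · have hy1' : y = 1 := by linear_combination hy1
      have hx : x = 0 := by
        have : (2 : F) * x = 0 := by
          rw [hy1'] at htr
          linear_combination htr
        rcases mul_eq_zero.mp this with h | h
        · exact absurd h h2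
        · exact h
      have hs : a * r * a⁻¹ = r := by
        apply ext'
        · rw [h00, hy1', hx]; ring
        · rw [h01, hy1']; ring
        · rw [h10, hy1']; ring
        · rw [h11, hy1', hx]; ring
      have hcomm : r * a = a * r := by
        have := congrArg (fun g => g * a) hs
        simp only [inv_mul_cancel_right] at this
        exact this.symm
      exact hr (scalar_of_comm_unip h2 ht ha hcomm n hn hrn)
    · have hy1' : y = -1 := by linear_combination hy1
      have hx : x = (r : M2 F) 0 0 + (r : M2 F) 1 1 := by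
        have : (2 : F) * (x - ((r : M2 F) 0 0 + (r : M2 F) 1 1)) = 0 := by
          rw [hy1'] at htr
          linear_combination htr
        rcases mul_eq_zero.mp this with h | h
        · exact absurd h h2
        · linear_combination h
      have hs : a * r * a⁻¹ = r⁻¹ := by
        apply ext'
        · rw [h00, hy1', hx, inv00]; ring
        · rw [h01, hy1', inv01]; ring
        · rw [h10, hy1', inv10]; ring
        · rw [h11, hy1', hx, inv11]; ring
      have hcomm : r * (a * a) = (a * a) * r := by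
        have h3 : a * r⁻¹ * a⁻¹ = r := by
          calc a * r⁻¹ * a⁻¹ = (a * r * a⁻¹)⁻¹ := by group
            _ = r := by rw [hs, inv_inv]
        have h4 : a * (a * r * a⁻¹) * a⁻¹ = r := by rw [hs]; exact h3
        have h5 : (a * a) * r = r * (a * a) := by
          calc (a * a) * r = a * (a * r * a⁻¹) * a⁻¹ * (a * a) := by group
            _ = r * (a * a) := by rw [h4]
        exact h5.symm
      obtain ⟨i00, i01, i10, i11⟩ := unip_pow a ht 2
      have htaa : ((a * a : SL2 F) : M2 F) 0 0 + ((a * a : SL2 F) : M2 F) 1 1 = 2 := by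
        rw [← pow_two, i00, i11]
        push_cast
        linear_combination 2 * ht
      have haa : a * a ≠ 1 := by
        intro h1
        apply ha
        apply unip_eq_one_of_pow ht 2 (by exact_mod_cast h2)
        rw [pow_two, h1]
      exact hr (scalar_of_comm_unip h2 htaa haa hcomm n hn hrn)
  · have ht2' : ((r : M2 F) 0 0 + (r : M2 F) 1 1) ^ 2 = 4 := by linear_combination ht2
    exact hr (scalar_of_trace_sq h2 ht2' n hn hrn)

theorem trace_of_pow_eq_one {p : ℕ} [Fact p.Prime] [CharP F p] (a : SL2 F) (k : ℕ)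
    (h : a ^ (p ^ k) = 1) : (a : M2 F) 0 0 + (a : M2 F) 1 1 = 2 := by
  have h1 : ((a : M2 F) - 1) ^ (p ^ k) = 0 := by
    have hc : Commute (a : M2 F) (1 : M2 F) := Commute.one_right _
    rw [sub_pow_char_pow_of_commute p k hc, one_pow, ← Matrix.SpecialLinearGroup.coe_pow, h,
      Matrix.SpecialLinearGroup.coe_one, sub_self]
  have h2 : IsNilpotent ((a : M2 F) - 1) := ⟨p ^ k, h1⟩
  have h3 := Matrix.isNilpotent_trace_of_isNilpotent h2
  have h4 : ((a : M2 F) - 1).trace = 0 := h3.eq_zero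
  rw [Matrix.trace_fin_two] at h4
  simp only [Matrix.sub_apply, Matrix.one_apply_eq] at h4
  linear_combination h4

end Cfsg.Agent.Lib.Helper20.SL2Mat
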